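import Mathlib
import Cfsg.Agent.Lib.Helper19.NormalElAb

set_option autoImplicit false

namespace Cfsg.Agent.Lib.Helper19.Breadth

open Subgroup
open scoped commutatorElement
open Cfsg.Agent.Lib.Helper19.NormalElAb (card_sup_mul_card_inf p_mul_card_le_of_lt)

variable {G : Type*} [Group G]

/-- elements whose commutators with `S` land in the normal subgroup `N` -/
def cc (N S : Subgroup G) [hN : N.Normal] : Subgroup G where
  carrier := {x | ∀ l ∈ S, ⁅l, x⁆ ∈ N}
  one_mem' := fun l _ => by
    rw [commutatorElement_one_right]; exact one_mem N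
  mul_mem' := by
    intro x y hx hy l hl
    have e : ⁅l, x * y⁆ = ⁅l, x⁆ * (x * ⁅l, y⁆ * x⁻¹) := by
      simp only [commutatorElement_def]; group
    rw [e]
    exact mul_mem (hx l hl) (hN.conj_mem _ (hy l hl) x)
  inv_mem' := by
    intro x hx l hl
    have e : ⁅l, x⁻¹⁆ = x⁻¹ * ⁅l, x⁆⁻¹ * x⁻¹⁻¹ := by
      simp only [commutatorElement_def]; group
    rw [e]
    exact hN.conj_mem _ (inv_mem (hx l hl)) x⁻¹

/-- elements `l` with `⁅l, x⁆ ∈ N` -/
def kk (N : Subgroup G) [hN : N.Normal] (x : G) : Subgroup G where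
  carrier := {l | ⁅l, x⁆ ∈ N}
  one_mem' := by
    show ⁅(1 : G), x⁆ ∈ N
    rw [commutatorElement_one_left]; exact one_mem N
  mul_mem' := by
    intro l l' hl hl'
    have e : ⁅l * l', x⁆ = (l * ⁅l', x⁆ * l⁻¹) * ⁅l, x⁆ := by
      simp only [commutatorElement_def]; group
    show ⁅l * l', x⁆ ∈ N
    rw [e]; exact mul_mem (hN.conj_mem _ hl' l) hl
  inv_mem' := by
    intro l hl
    have e : ⁅l⁻¹, x⁆ = l⁻¹ * ⁅l, x⁆⁻¹ * l⁻¹⁻¹ := by
      simp only [commutatorElement_def]; group
    show ⁅l⁻¹, x⁆ ∈ N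
    rw [e]; exact hN.conj_mem _ (inv_mem hl) l⁻¹

/-- the lower central series of the whole group -/
abbrev L (G : Type*) [Group G] (i : ℕ) : Subgroup G := (⊤ : Subgroup G).lowerCentralSeries i

open Classical in
/-- indicator of `x ∉ C_j`, where `C_j` centralizes `L_j / L_{j+2}` -/
noncomputable def ind (j : ℕ) (x : G) : ℕ := if x ∈ cc (L G (j + 2)) (L G j) then 0 else 1

theorem lemA [Finite G] {p : ℕ} [hp : Fact p.Prime] (hG : IsPGroup p G) (x : G) (n : ℕ) :
    ∀ k i : ℕ, i + k = n →
      Nat.card (L G i ⊓ centralizer ({x} : Set G) : Subgroup G)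
          * p ^ (∑ j ∈ Finset.Ico i n, ind j x) ≤ Nat.card (L G i) := by
  intro k
  induction k with
  | zero =>
    intro i hi
    have hin : i = n := by omega
    subst hin
    rw [Finset.Ico_self, Finset.sum_empty, pow_zero, mul_one]
    exact Subgroup.card_le_of_le inf_le_left
  | succ k ih =>
    intro i hi
    have hin : i < n := by omega
    have IH := ih (i + 1) (by omega)
    rw [Finset.sum_eq_sum_Ico_succ_bot hin]
    obtain ⟨m, hm⟩ : ∃ m, m = ∑ j ∈ Finset.Ico (i + 1) n, ind j x := ⟨_, rfl⟩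
    rw [← hm] at IH ⊢
    have hle : L G (i + 1) ≤ L G i :=
      (⊤ : Subgroup G).lowerCentralSeries_antitone (Nat.le_succ i)
    have hn1 : (L G (i + 1)).Normal := inferInstance
    obtain ⟨Di, hDi⟩ : ∃ Di : Subgroup G, Di = L G i ⊓ centralizer ({x} : Set G) := ⟨_, rfl⟩
    rw [← hDi]
    have f0 := card_sup_mul_card_inf (H := Di) (N := L G (i + 1))
      (by rw [normalizer_eq_top_iff.mpr hn1]; exact le_top)
    have e1 : Di ⊓ L G (i + 1) = L G (i + 1) ⊓ centralizer ({x} : Set G) := by
      rw [hDi, inf_right_comm, inf_eq_right.mpr hle]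
    rw [e1] at f0
    have pL1 : 0 < Nat.card (L G (i + 1)) := Nat.card_pos
    have hsupLe : Di ⊔ L G (i + 1) ≤ L G i := sup_le (by rw [hDi]; exact inf_le_left) hle
    by_cases hx : x ∈ cc (L G (i + 2)) (L G i)
    · have h0 : ind i x = 0 := if_pos hx
      rw [h0, zero_add]
      have h1 := Subgroup.card_le_of_le hsupLe
      have h2 : Nat.card Di * p ^ m * Nat.card (L G (i + 1))
          ≤ Nat.card (L G i) * Nat.card (L G (i + 1)) := by
        calc Nat.card Di * p ^ m * Nat.card (L G (i + 1))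
            = (Nat.card Di * Nat.card (L G (i + 1))) * p ^ m := by ring
          _ = Nat.card (Di ⊔ L G (i + 1) : Subgroup G)
              * (Nat.card (L G (i + 1) ⊓ centralizer ({x} : Set G) : Subgroup G) * p ^ m) := by
                rw [← f0]; ring
          _ ≤ Nat.card (L G i) * Nat.card (L G (i + 1)) := Nat.mul_le_mul h1 IH
      exact Nat.le_of_mul_le_mul_right h2 pL1
    · have h0 : ind i x = 1 := if_neg hx
      rw [h0]
      have hK1 : Di ⊔ L G (i + 1) ≤ L G i ⊓ kk (L G (i + 2)) x := by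
        refine sup_le ?_ ?_
        · intro l hl
          rw [hDi] at hl
          refine Subgroup.mem_inf.mpr ⟨(Subgroup.mem_inf.mp hl).1, ?_⟩
          show ⁅l, x⁆ ∈ L G (i + 2)
          have h3 : ⁅l, x⁆ = 1 := by
            rw [commutatorElement_eq_one_iff_mul_comm]
            exact (mem_centralizer_iff.mp (Subgroup.mem_inf.mp hl).2 x rfl).symm
          rw [h3]; exact one_mem _
        · intro l hl
          refine Subgroup.mem_inf.mpr ⟨hle hl, ?_⟩
          show ⁅l, x⁆ ∈ ⁅L G (i + 1), (⊤ : Subgroup G)⁆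
          exact Subgroup.commutator_mem_commutator hl (mem_top x)
      have hK2 : L G i ⊓ kk (L G (i + 2)) x < L G i := by
        refine lt_of_le_of_ne inf_le_left ?_
        intro heq
        apply hx
        intro l hl
        have h3 : l ∈ L G i ⊓ kk (L G (i + 2)) x := by rw [heq]; exact hl
        exact (Subgroup.mem_inf.mp h3).2
      have h1 := p_mul_card_le_of_lt hG hK2
      have h1' : p * Nat.card (Di ⊔ L G (i + 1) : Subgroup G) ≤ Nat.card (L G i) :=
        (Nat.mul_le_mul_left p (Subgroup.card_le_of_le hK1)).trans h1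
      have h2 : Nat.card Di * p ^ (1 + m) * Nat.card (L G (i + 1))
          ≤ Nat.card (L G i) * Nat.card (L G (i + 1)) := by
        calc Nat.card Di * p ^ (1 + m) * Nat.card (L G (i + 1))
            = p * (Nat.card Di * Nat.card (L G (i + 1))) * p ^ m := by ring
          _ = (p * Nat.card (Di ⊔ L G (i + 1) : Subgroup G))
              * (Nat.card (L G (i + 1) ⊓ centralizer ({x} : Set G) : Subgroup G) * p ^ m) := by
                rw [← f0]; ring
          _ ≤ Nat.card (L G i) * Nat.card (L G (i + 1)) := Nat.mul_le_mul h1' IH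
      exact Nat.le_of_mul_le_mul_right h2 pL1

theorem lemB [Finite G] {p : ℕ} [hp : Fact p.Prime] (hG : IsPGroup p G) (n b : ℕ) (hn : 1 ≤ n)
    (hC : ∀ j < n, cc (L G (j + 2)) (L G j) ≠ ⊤)
    (hM : ∀ x : G, ∑ j ∈ Finset.range n, ind j x ≤ b) : n * (p - 1) < b * p := by
  classical
  have hfin : Fintype G := Fintype.ofFinite G
  obtain ⟨q, hq⟩ : ∃ q, p = q + 1 := ⟨p - 1, by have := hp.out.pos; omega⟩
  have hq1 : 1 ≤ q := by have := hp.out.two_le; omega
  have hg : Nat.card G = Fintype.card G := Nat.card_eq_fintype_card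
  have pg : 0 < Fintype.card G := Fintype.card_pos
  have h1 : ∀ j ∈ Finset.range n, q * Fintype.card G ≤ (q + 1) * ∑ x : G, ind j x := by
    intro j hj
    have hj' : j < n := Finset.mem_range.mp hj
    have hlt : cc (L G (j + 2)) (L G j) < ⊤ := lt_top_iff_ne_top.mpr (hC j hj')
    have h2 := p_mul_card_le_of_lt hG hlt
    rw [Subgroup.card_top, hg, hq] at h2
    have h3 : ∑ x : G, ind j x + Nat.card (cc (L G (j + 2)) (L G j)) = Fintype.card G := by
      have e1 : ∑ x : G, ind j x
          = (Finset.univ.filter (fun x : G => x ∉ cc (L G (j + 2)) (L G j))).card := by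
        rw [Finset.card_filter]
        apply Finset.sum_congr rfl
        intro x _
        by_cases hx : x ∈ cc (L G (j + 2)) (L G j)
        · have h0 : ind j x = 0 := if_pos hx
          rw [h0, if_neg (not_not.mpr hx)]
        · have h0 : ind j x = 1 := if_neg hx
          rw [h0, if_pos hx]
      have e2 : Nat.card (cc (L G (j + 2)) (L G j))
          = (Finset.univ.filter (fun x : G => x ∈ cc (L G (j + 2)) (L G j))).card := by
        rw [Nat.card_eq_fintype_card, Fintype.card_subtype]
      rw [e1, e2, add_comm]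
      exact Finset.card_filter_add_card_filter_not _
    have h4 : (q + 1) * ∑ x : G, ind j x + (q + 1) * Nat.card (cc (L G (j + 2)) (L G j))
        = (q + 1) * Fintype.card G := by rw [← mul_add, h3]
    nlinarith
  have h4 : n * (q * Fintype.card G) ≤ (q + 1) * ∑ x : G, ∑ j ∈ Finset.range n, ind j x := by
    rw [Finset.sum_comm, Finset.mul_sum]
    calc n * (q * Fintype.card G) = ∑ j ∈ Finset.range n, q * Fintype.card G := by
          rw [Finset.sum_const, Finset.card_range, smul_eq_mul]
      _ ≤ ∑ j ∈ Finset.range n, (q + 1) * ∑ x : G, ind j x := Finset.sum_le_sum h1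
  have h5 : ∑ x : G, ∑ j ∈ Finset.range n, ind j x ≤ (Fintype.card G - 1) * b := by
    rw [← Finset.add_sum_erase Finset.univ _ (Finset.mem_univ (1 : G))]
    have h6 : ∑ j ∈ Finset.range n, ind j (1 : G) = 0 := by
      apply Finset.sum_eq_zero
      intro j _
      exact if_pos (one_mem _)
    rw [h6, zero_add]
    calc ∑ x ∈ Finset.univ.erase (1 : G), ∑ j ∈ Finset.range n, ind j x
        ≤ (Finset.univ.erase (1 : G)).card • b :=
          Finset.sum_le_card_nsmul _ _ _ (fun x _ => hM x)
      _ = (Fintype.card G - 1) * b := by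
          rw [Finset.card_erase_of_mem (Finset.mem_univ _), Finset.card_univ, smul_eq_mul]
  have h7 : n * (q * Fintype.card G) ≤ (q + 1) * ((Fintype.card G - 1) * b) :=
    h4.trans (Nat.mul_le_mul_left _ h5)
  rw [hq, Nat.add_sub_cancel]
  by_contra hcon
  push Not at hcon
  obtain ⟨g', hg'⟩ : ∃ g', Fintype.card G = g' + 1 := ⟨Fintype.card G - 1, by omega⟩
  rw [hg', Nat.add_sub_cancel] at h7
  have h8 : 1 ≤ n * q := Nat.mul_pos hn hq1
  nlinarith [Nat.mul_le_mul_left g' hcon]

/-- Leedham-Green, Neumann, Wiegold: the class of a `p`-group of breadth `b` satisfies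
`(c - 1) (p - 1) < b p`. -/
theorem breadth_class [Finite G] {p : ℕ} [hp : Fact p.Prime] (hG : IsPGroup p G) (b : ℕ)
    (hb : ∀ x : G, (centralizer ({x} : Set G)).index ≤ p ^ b) :
    ∃ c : ℕ, (⊤ : Subgroup G).lowerCentralSeries c = ⊥ ∧
      (b ≠ 0 → (c - 1) * (p - 1) < b * p ∧ c ≤ 2 * b) ∧ (b = 0 → c ≤ 1) := by
  classical
  have hnil : Group.IsNilpotent G := hG.isNilpotent
  have hex : ∃ c, L G c = ⊥ := Subgroup.nilpotent_iff_lowerCentralSeries.mp hnil
  obtain ⟨c, hc, hmin⟩ : ∃ c, L G c = ⊥ ∧ ∀ m < c, L G m ≠ ⊥ :=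
    ⟨Nat.find hex, Nat.find_spec hex, fun m hm => Nat.find_min hex hm⟩
  have hp2 : 2 ≤ p := hp.out.two_le
  by_cases hc1 : c ≤ 1
  · refine ⟨c, hc, fun hb0 => ⟨?_, ?_⟩, fun _ => hc1⟩
    · have h0 : c - 1 = 0 := by omega
      rw [h0, zero_mul]
      exact Nat.mul_pos (Nat.pos_of_ne_zero hb0) (by omega)
    · omega
  · push Not at hc1
    obtain ⟨n, rfl⟩ : ∃ n, c = n + 1 := ⟨c - 1, by omega⟩
    have hn : 1 ≤ n := by omega
    have hC : ∀ j < n, cc (L G (j + 2)) (L G j) ≠ ⊤ := by
      intro j hj htop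
      have h1 : L G (j + 1) ≤ L G (j + 2) := by
        show ⁅L G j, (⊤ : Subgroup G)⁆ ≤ L G (j + 2)
        rw [Subgroup.commutator_le]
        intro l hl x _
        have h0 : x ∈ cc (L G (j + 2)) (L G j) := by rw [htop]; exact mem_top x
        exact h0 l hl
      have h2 : L G (j + 2) = L G (j + 1) :=
        le_antisymm ((⊤ : Subgroup G).lowerCentralSeries_antitone (Nat.le_succ _)) h1
      have h3 : ∀ k, L G (j + 1 + k) = L G (j + 1) := by
        intro k
        induction k with
        | zero => rfl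
        | succ k ih =>
          show ⁅L G (j + 1 + k), (⊤ : Subgroup G)⁆ = L G (j + 1)
          rw [ih]
          exact h2
      have h4 := h3 (n - j)
      have e : j + 1 + (n - j) = n + 1 := by omega
      rw [e, hc] at h4
      exact hmin (j + 1) (by omega) h4.symm
    have hM : ∀ x : G, ∑ j ∈ Finset.range n, ind j x ≤ b := by
      intro x
      have h1 := lemA hG x n n 0 (by omega)
      rw [← Finset.range_eq_Ico] at h1
      have e0 : L G 0 ⊓ centralizer ({x} : Set G) = centralizer ({x} : Set G) := by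
        show (⊤ : Subgroup G) ⊓ _ = _
        exact top_inf_eq _
      rw [e0] at h1
      have e1 : Nat.card (L G 0) = Nat.card G := by
        show Nat.card (⊤ : Subgroup G) = _
        exact Subgroup.card_top
      rw [e1, ← Subgroup.card_mul_index (centralizer ({x} : Set G))] at h1
      have h2 : p ^ (∑ j ∈ Finset.range n, ind j x) ≤ (centralizer ({x} : Set G)).index :=
        Nat.le_of_mul_le_mul_left h1 Nat.card_pos
      have h3 := h2.trans (hb x)
      exact (Nat.pow_le_pow_iff_right (by omega)).mp h3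
    have hB := lemB hG n b hn hC hM
    have hb0 : b ≠ 0 := by
      rintro rfl
      simp at hB
    refine ⟨n + 1, hc, fun _ => ⟨?_, ?_⟩, fun h => absurd h hb0⟩
    · rw [Nat.add_sub_cancel]; exact hB
    · by_contra hcon
      push Not at hcon
      obtain ⟨q, rfl⟩ : ∃ q, p = q + 1 := ⟨p - 1, by omega⟩
      rw [Nat.add_sub_cancel] at hB
      have h9 : 2 * b ≤ n := by omega
      nlinarith [Nat.mul_le_mul_right q h9, Nat.mul_le_mul_left b (show 1 ≤ q by omega)]

end Cfsg.Agent.Lib.Helper19.Breadth
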