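import Mathlib
import Cfsg.Prelude.Def_Solvable
import Cfsg.Agent.Lib.Helper1.Burnside
import Cfsg.Agent.Lib.Helper1.Cores

set_option autoImplicit false

namespace Cfsg.Agent.Lib.Helper19.Homocyc

universe u

/-- elements of additive order at most two in `ZMod (2 ^ m)` -/
theorem zmod_two_torsion (m : ℕ) (hm : 1 ≤ m) (x : ZMod (2 ^ m)) (hx : x + x = 0) :
    x = 0 ∨ x = ((2 ^ (m - 1) : ℕ) : ZMod (2 ^ m)) := by
  have : NeZero (2 ^ m) := ⟨by positivity⟩
  have hv : ((x.val : ℕ) : ZMod (2 ^ m)) = x := ZMod.natCast_zmod_val x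
  have hlt : x.val < 2 ^ m := ZMod.val_lt x
  have h2 : ((x.val + x.val : ℕ) : ZMod (2 ^ m)) = 0 := by
    rw [Nat.cast_add, hv]; exact hx
  rw [ZMod.natCast_eq_zero_iff] at h2
  have hpow : 2 ^ m = 2 * 2 ^ (m - 1) := by
    rw [← pow_succ']; congr 1; omega
  have h3 : 2 ^ (m - 1) ∣ x.val := by
    have h2' : 2 * 2 ^ (m - 1) ∣ 2 * x.val := by
      rw [← hpow, two_mul]; exact h2
    exact Nat.dvd_of_mul_dvd_mul_left (by norm_num) h2'
  obtain ⟨c, hc⟩ := h3
  have hpos : 0 < 2 ^ (m - 1) := by positivity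
  have hc2 : c < 2 := by
    by_contra hcon
    push Not at hcon
    have : 2 ^ (m - 1) * 2 ≤ 2 ^ (m - 1) * c := Nat.mul_le_mul_left _ hcon
    omega
  interval_cases c
  · left; rw [← hv, hc]; simp
  · right; rw [← hv, hc]; simp

theorem zmod_half_ne_zero (m : ℕ) (hm : 1 ≤ m) : ((2 ^ (m - 1) : ℕ) : ZMod (2 ^ m)) ≠ 0 := by
  rw [Ne, ZMod.natCast_eq_zero_iff]
  intro h
  have h1 : 2 ^ m ≤ 2 ^ (m - 1) := Nat.le_of_dvd (by positivity) h
  have h2 : 2 ^ (m - 1) < 2 ^ m := Nat.pow_lt_pow_right (by norm_num) (by omega)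
  omega

theorem zmod_half_add_half (m : ℕ) (hm : 1 ≤ m) :
    ((2 ^ (m - 1) : ℕ) : ZMod (2 ^ m)) + ((2 ^ (m - 1) : ℕ) : ZMod (2 ^ m)) = 0 := by
  rw [← Nat.cast_add, ZMod.natCast_eq_zero_iff]
  have : 2 ^ (m - 1) + 2 ^ (m - 1) = 2 ^ m := by
    rw [← two_mul, ← pow_succ']; congr 1; omega
  rw [this]

set_option linter.unusedSimpArgs false

section main

variable {G : Type u} [Group G]

/-- a homocyclic group of rank two has at most three involutions -/
theorem inv_of_equiv (P : Subgroup G) (m : ℕ) (hm : 1 ≤ m)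
    (e : P ≃* Multiplicative (ZMod (2 ^ m) × ZMod (2 ^ m))) :
    ∀ t₁ ∈ P, ∀ t₂ ∈ P, ∀ s ∈ P, t₁ * t₁ = 1 → t₂ * t₂ = 1 → s * s = 1 → t₁ ≠ 1 → t₂ ≠ 1 →
      s ≠ 1 → t₁ ≠ t₂ → s = t₁ ∨ s = t₂ ∨ s = t₁ * t₂ := by
  intro t₁ ht₁ t₂ ht₂ s hs h1 h2 h3 n1 n2 n3 n12
  obtain ⟨f, hf⟩ : ∃ f : P → ZMod (2 ^ m) × ZMod (2 ^ m),
      f = fun x => Multiplicative.toAdd (e x) := ⟨_, rfl⟩
  have fmul : ∀ x y : P, f (x * y) = f x + f y := by
    intro x y; rw [hf]; simp
  have fone : f 1 = 0 := by rw [hf]; simp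
  have finj : Function.Injective f := by
    rw [hf]; intro x y hxy; exact e.injective (Multiplicative.toAdd.injective hxy)
  obtain ⟨h, hh⟩ : ∃ h : ZMod (2 ^ m), h = ((2 ^ (m - 1) : ℕ) : ZMod (2 ^ m)) := ⟨_, rfl⟩
  have hh0 : h ≠ 0 := by rw [hh]; exact zmod_half_ne_zero m hm
  have hh0' : (0 : ZMod (2 ^ m)) ≠ h := hh0.symm
  have hhh : h + h = 0 := by rw [hh]; exact zmod_half_add_half m hm
  have key : ∀ x : P, x * x = 1 →
      ((f x).1 = 0 ∨ (f x).1 = h) ∧ ((f x).2 = 0 ∨ (f x).2 = h) := by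
    intro x hx
    have h0 : f x + f x = 0 := by rw [← fmul, hx, fone]
    have h01 : (f x).1 + (f x).1 = 0 := congrArg Prod.fst h0
    have h02 : (f x).2 + (f x).2 = 0 := congrArg Prod.snd h0
    rw [hh]
    exact ⟨zmod_two_torsion m hm _ h01, zmod_two_torsion m hm _ h02⟩
  have k1 := key ⟨t₁, ht₁⟩ (Subtype.ext h1)
  have k2 := key ⟨t₂, ht₂⟩ (Subtype.ext h2)
  have k3 := key ⟨s, hs⟩ (Subtype.ext h3)
  have m1 : f ⟨t₁, ht₁⟩ ≠ 0 := by
    intro h'; rw [← fone] at h'; exact n1 (congrArg Subtype.val (finj h'))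
  have m2 : f ⟨t₂, ht₂⟩ ≠ 0 := by
    intro h'; rw [← fone] at h'; exact n2 (congrArg Subtype.val (finj h'))
  have m3 : f ⟨s, hs⟩ ≠ 0 := by
    intro h'; rw [← fone] at h'; exact n3 (congrArg Subtype.val (finj h'))
  have m12 : f ⟨t₁, ht₁⟩ ≠ f ⟨t₂, ht₂⟩ := by
    intro h'; exact n12 (congrArg Subtype.val (finj h'))
  have goal' : f ⟨s, hs⟩ = f ⟨t₁, ht₁⟩ ∨ f ⟨s, hs⟩ = f ⟨t₂, ht₂⟩ ∨
      f ⟨s, hs⟩ = f ⟨t₁, ht₁⟩ + f ⟨t₂, ht₂⟩ := by
    rw [Ne, Prod.ext_iff] at m1 m2 m3 m12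
    simp only [Prod.ext_iff, Prod.fst_add, Prod.snd_add, Prod.fst_zero, Prod.snd_zero] at m1 m2 m3 m12 ⊢
    rcases k1 with ⟨a1 | a1, b1 | b1⟩ <;> rcases k2 with ⟨a2 | a2, b2 | b2⟩ <;>
      rcases k3 with ⟨a3 | a3, b3 | b3⟩ <;>
      simp only [a1, b1, a2, b2, a3, b3, hh0, hh0', hhh, add_zero, zero_add, and_self, and_true,
        true_and, not_true_eq_false, not_false_eq_true, or_true, true_or, false_and, and_false,
        or_false, false_or] at m1 m2 m3 m12 ⊢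
  rcases goal' with g | g | g
  · left; exact congrArg Subtype.val (finj g)
  · right; left; exact congrArg Subtype.val (finj g)
  · right; right
    rw [← fmul] at g
    exact congrArg Subtype.val (finj g)

section sylow

variable [Finite G] (P : Sylow 2 G)

theorem conj_mem_of_mem_normalizer {n : G} (hn : n ∈ Subgroup.normalizer (P : Set G)) {x : G}
    (hx : x ∈ P) : n * x * n⁻¹ ∈ P :=
  ((Subgroup.mem_normalizer_iff (H := (P : Subgroup G))).mp hn x).mp hx

theorem mem_centralizer_iff_conj {n : G} :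
    n ∈ Subgroup.centralizer (P : Set G) ↔ ∀ u ∈ P, n * u * n⁻¹ = u := by
  rw [Subgroup.mem_centralizer_iff]
  constructor
  · intro h u hu
    rw [← h u hu, mul_inv_cancel_right]
  · intro h u hu
    have h1 := h u hu
    calc u * n = (n * u * n⁻¹) * n := by rw [h1]
      _ = n * u := by group

theorem exists_odd_pow_mem {n : G} (hn : n ∈ Subgroup.normalizer (P : Set G)) :
    ∃ r : ℕ, Odd r ∧ n ^ r ∈ P := by
  have : Fact (Nat.Prime 2) := ⟨Nat.prime_two⟩
  have hpos : 0 < orderOf n := orderOf_pos n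
  obtain ⟨k, r, hr, hkr⟩ := Nat.exists_eq_two_pow_mul_odd hpos.ne'
  refine ⟨r, hr, ?_⟩
  have h1 : (n ^ r) ^ (2 ^ k) = 1 := by
    rw [← pow_mul, mul_comm, ← hkr, pow_orderOf_eq_one]
  have hp : IsPGroup 2 (Subgroup.zpowers (n ^ r)) := by
    have hd : orderOf (n ^ r) ∣ 2 ^ k := orderOf_dvd_of_pow_eq_one h1
    obtain ⟨j, -, hj⟩ := (Nat.dvd_prime_pow Nat.prime_two).mp hd
    exact IsPGroup.of_card (n := j) (by rw [Nat.card_zpowers, hj])
  have h2 := hp.inf_normalizer_sylow P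
  have hmem : n ^ r ∈ Subgroup.zpowers (n ^ r) ⊓ Subgroup.normalizer (P : Set G) :=
    Subgroup.mem_inf.mpr ⟨Subgroup.mem_zpowers _, pow_mem hn r⟩
  rw [h2] at hmem
  exact (Subgroup.mem_inf.mp hmem).2

theorem central_of_fix_invol (hab : ∀ x ∈ P, ∀ y ∈ P, x * y = y * x) {n : G}
    (hn : n ∈ Subgroup.normalizer (P : Set G))
    (hfix : ∀ t ∈ P, t * t = 1 → n * t * n⁻¹ = t) :
    n ∈ Subgroup.centralizer (P : Set G) := by
  rw [mem_centralizer_iff_conj]
  obtain ⟨r, hr, hnr⟩ := exists_odd_pow_mem P hn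
  have hk : ∀ k : ℕ, ∀ u ∈ P, u ^ (2 ^ k) = 1 → n * u * n⁻¹ = u := by
    intro k
    induction k with
    | zero =>
      intro u _ hu1
      rw [pow_zero, pow_one] at hu1
      rw [hu1]; group
    | succ k ih =>
      intro u hu hu1
      have huu : n * (u * u) * n⁻¹ = u * u := by
        apply ih (u * u) (mul_mem hu hu)
        rw [← pow_two, ← pow_mul, ← pow_succ']
        exact hu1
      obtain ⟨w, hw⟩ : ∃ w, w = n * u * n⁻¹ * u⁻¹ := ⟨_, rfl⟩
      have hcu : n * u * n⁻¹ ∈ P := conj_mem_of_mem_normalizer P hn hu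
      have hwP : w ∈ P := by rw [hw]; exact mul_mem hcu (inv_mem hu)
      have hww : w * w = 1 := by
        have hc : u⁻¹ * (n * u * n⁻¹) = (n * u * n⁻¹) * u⁻¹ := hab _ (inv_mem hu) _ hcu
        calc w * w = (n * u * n⁻¹) * (u⁻¹ * (n * u * n⁻¹)) * u⁻¹ := by rw [hw]; group
          _ = (n * u * n⁻¹) * ((n * u * n⁻¹) * u⁻¹) * u⁻¹ := by rw [hc]
          _ = (n * (u * u) * n⁻¹) * u⁻¹ * u⁻¹ := by group
          _ = 1 := by rw [huu]; group
      have hnw : n * w * n⁻¹ = w := hfix w hwP hww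
      have hnu : n * u * n⁻¹ = u * w := by
        rw [hab u hu w hwP, hw]; group
      have hj : ∀ j : ℕ, n ^ j * u * (n ^ j)⁻¹ = u * w ^ j := by
        intro j
        induction j with
        | zero => simp
        | succ j ihj =>
          have hnwj : n * w ^ j * n⁻¹ = w ^ j := by
            rw [← conj_pow, hnw]
          calc n ^ (j + 1) * u * (n ^ (j + 1))⁻¹ = n * (n ^ j * u * (n ^ j)⁻¹) * n⁻¹ := by
                rw [pow_succ']; group
            _ = n * (u * w ^ j) * n⁻¹ := by rw [ihj]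
            _ = (n * u * n⁻¹) * (n * w ^ j * n⁻¹) := by group
            _ = u * w * w ^ j := by rw [hnu, hnwj]
            _ = u * w ^ (j + 1) := by rw [pow_succ', mul_assoc]
      have hr1 : n ^ r * u * (n ^ r)⁻¹ = u := by
        rw [hab _ hnr u hu, mul_inv_cancel_right]
      have hwr : w ^ r = 1 := by
        have h3 := hj r
        rw [hr1] at h3
        exact mul_left_cancel (a := u) (b := w ^ r) (c := 1) (by rw [mul_one]; exact h3.symm)
      obtain ⟨q, hq⟩ := hr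
      have hw1 : w = 1 := by
        rw [hq, pow_succ, pow_mul, pow_two, hww, one_pow, one_mul] at hwr
        exact hwr
      rw [hnu, hw1, mul_one]
  intro u hu
  obtain ⟨k, hk1⟩ := P.isPGroup' ⟨u, hu⟩
  exact hk k u hu (by simpa using congrArg Subtype.val hk1)

theorem central_of_sq_central (hab : ∀ x ∈ P, ∀ y ∈ P, x * y = y * x) {n : G}
    (hn : n ∈ Subgroup.normalizer (P : Set G))
    (h2 : n * n ∈ Subgroup.centralizer (P : Set G)) :
    n ∈ Subgroup.centralizer (P : Set G) := by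
  obtain ⟨r, ⟨q, hq⟩, hnr⟩ := exists_odd_pow_mem P hn
  have h1 : n ^ r ∈ Subgroup.centralizer (P : Set G) := by
    rw [Subgroup.mem_centralizer_iff]
    intro y hy
    exact hab y hy _ hnr
  have h3 : (n * n) ^ q ∈ Subgroup.centralizer (P : Set G) := pow_mem h2 q
  have h4 : n = ((n * n) ^ q)⁻¹ * n ^ r := by
    rw [hq, pow_succ, pow_mul, pow_two]; group
  rw [h4]; exact mul_mem (inv_mem h3) h1

theorem exists_invol_pow {u : G} (hu : u ∈ P) (hu1 : u ≠ 1) :
    ∃ j : ℕ, u ^ j ≠ 1 ∧ u ^ j * u ^ j = 1 := by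
  classical
  have hex : ∃ k : ℕ, u ^ (2 ^ k) = 1 := by
    obtain ⟨k, hk⟩ := P.isPGroup' ⟨u, hu⟩
    exact ⟨k, by simpa using congrArg Subtype.val hk⟩
  have hk0 : Nat.find hex ≠ 0 := by
    intro h0
    have h1 := Nat.find_spec hex
    rw [h0, pow_zero, pow_one] at h1
    exact hu1 h1
  obtain ⟨k, hk⟩ := Nat.exists_eq_succ_of_ne_zero hk0
  refine ⟨2 ^ k, ?_, ?_⟩
  · intro h
    exact Nat.find_min hex (by omega : k < Nat.find hex) h
  · have h1 := Nat.find_spec hex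
    rw [hk, Nat.succ_eq_add_one, pow_succ, pow_mul, pow_two] at h1
    exact h1

theorem conj_invol {n : G} (hn : n ∈ Subgroup.normalizer (P : Set G)) {s : G} (hs : s ∈ P)
    (hs1 : s ≠ 1) (hss : s * s = 1) :
    n * s * n⁻¹ ∈ P ∧ n * s * n⁻¹ ≠ 1 ∧ (n * s * n⁻¹) * (n * s * n⁻¹) = 1 := by
  refine ⟨conj_mem_of_mem_normalizer P hn hs, ?_, ?_⟩
  · intro h
    exact hs1 (conj_eq_one_iff.mp h)
  · calc (n * s * n⁻¹) * (n * s * n⁻¹) = n * (s * s) * n⁻¹ := by group
      _ = 1 := by rw [hss]; group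

theorem central_of_fix (hab : ∀ x ∈ P, ∀ y ∈ P, x * y = y * x)
    (hinv : ∀ t₁ ∈ P, ∀ t₂ ∈ P, ∀ s ∈ P, t₁ * t₁ = 1 → t₂ * t₂ = 1 → s * s = 1 → t₁ ≠ 1 →
      t₂ ≠ 1 → s ≠ 1 → t₁ ≠ t₂ → s = t₁ ∨ s = t₂ ∨ s = t₁ * t₂)
    {n : G} (hn : n ∈ Subgroup.normalizer (P : Set G)) {u : G} (hu : u ∈ P) (hu1 : u ≠ 1)
    (hfix : n * u * n⁻¹ = u) : n ∈ Subgroup.centralizer (P : Set G) := by
  obtain ⟨j, hj1, hj2⟩ := exists_invol_pow P hu hu1
  obtain ⟨t, htdef⟩ : ∃ t, t = u ^ j := ⟨_, rfl⟩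
  rw [← htdef] at hj1 hj2
  have ht : t ∈ P := by rw [htdef]; exact pow_mem hu j
  have hnt : n * t * n⁻¹ = t := by rw [htdef, ← conj_pow, hfix]
  by_cases hall : ∀ s ∈ P, s * s = 1 → n * s * n⁻¹ = s
  · exact central_of_fix_invol P hab hn hall
  · push Not at hall
    obtain ⟨s, hs, hss, hns⟩ := hall
    have hs1 : s ≠ 1 := by
      rintro rfl; exact hns (by group)
    have hst : s ≠ t := by
      rintro rfl; exact hns hnt
    obtain ⟨hs'P, hs'1, hs's'⟩ := conj_invol P hn hs hs1 hss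
    rcases hinv t ht s hs (n * s * n⁻¹) hs'P hj2 hss hs's' hj1 hs1 hs'1 (Ne.symm hst)
      with h | h | h
    · exfalso; apply hst
      have h5 : n * s * n⁻¹ = n * t * n⁻¹ := by rw [h, hnt]
      exact mul_left_cancel (mul_right_cancel h5)
    · exact absurd h hns
    · have hnts : n * (t * s) * n⁻¹ = s := by
        calc n * (t * s) * n⁻¹ = (n * t * n⁻¹) * (n * s * n⁻¹) := by group
          _ = t * (t * s) := by rw [hnt, h]
          _ = s := by rw [← mul_assoc, hj2, one_mul]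
      apply central_of_sq_central P hab hn
      apply central_of_fix_invol P hab (mul_mem hn hn)
      intro x hx hxx
      by_cases hx1 : x = 1
      · rw [hx1]; group
      rcases hinv t ht s hs x hx hj2 hss hxx hj1 hs1 hx1 (Ne.symm hst) with h' | h' | h'
      · rw [h']
        calc n * n * t * (n * n)⁻¹ = n * (n * t * n⁻¹) * n⁻¹ := by group
          _ = t := by rw [hnt, hnt]
      · rw [h']
        calc n * n * s * (n * n)⁻¹ = n * (n * s * n⁻¹) * n⁻¹ := by group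
          _ = s := by rw [h, hnts]
      · rw [h']
        calc n * n * (t * s) * (n * n)⁻¹ = n * (n * (t * s) * n⁻¹) * n⁻¹ := by group
          _ = t * s := by rw [hnts, h]

theorem index_core (hab : ∀ x ∈ P, ∀ y ∈ P, x * y = y * x)
    (hfixC : ∀ n ∈ Subgroup.normalizer (P : Set G), ∀ u ∈ P, u ≠ 1 → n * u * n⁻¹ = u →
      n ∈ Subgroup.centralizer (P : Set G))
    {u : G} (hu : u ∈ P) (hu1 : u ≠ 1) :
    ∃ k : ℕ, (Cfsg.pPrimeCore 2 ↥(Subgroup.centralizer ({u} : Set G))).index = 2 ^ k := by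
  classical
  have : Fact (Nat.Prime 2) := ⟨Nat.prime_two⟩
  have hle : (P : Subgroup G) ≤ Subgroup.centralizer ({u} : Set G) := by
    intro x hx
    rw [Subgroup.mem_centralizer_singleton_iff]
    exact hab x hx u hu
  have hP'mem : ∀ y : Subgroup.centralizer ({u} : Set G),
      y ∈ (P.subtype hle : Subgroup (Subgroup.centralizer ({u} : Set G))) ↔ (y : G) ∈ P := by
    intro y
    rw [Sylow.coe_subtype, Subgroup.mem_subgroupOf]
    rfl
  have hN : Subgroup.normalizer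
        (((P.subtype hle : Sylow 2 (Subgroup.centralizer ({u} : Set G)))) :
          Set (Subgroup.centralizer ({u} : Set G)))
      ≤ Subgroup.centralizer
        (((P.subtype hle : Sylow 2 (Subgroup.centralizer ({u} : Set G)))) :
          Set (Subgroup.centralizer ({u} : Set G))) := by
    intro n hn
    have hnu : (n : G) * u = u * (n : G) := Subgroup.mem_centralizer_singleton_iff.mp n.2
    have hun : (n : G) * u * (n : G)⁻¹ = u := by
      rw [hnu, mul_inv_cancel_right]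
    have hnN : (n : G) ∈ Subgroup.normalizer (P : Set G) := by
      refine (Subgroup.mem_normalizer_iff (H := (P : Subgroup G))).mpr ?_
      intro z
      have hiff := Subgroup.mem_normalizer_iff
        (H := (P.subtype hle : Subgroup (Subgroup.centralizer ({u} : Set G)))) (g := n)
      have hn' := hiff.mp hn
      constructor
      · intro hz
        have hzC : z ∈ Subgroup.centralizer ({u} : Set G) := hle hz
        have h1 := (hn' ⟨z, hzC⟩).mp ((hP'mem _).mpr hz)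
        exact (hP'mem _).mp h1
      · intro hz
        have hzC : z ∈ Subgroup.centralizer ({u} : Set G) := by
          have h2 : (n : G) * z * (n : G)⁻¹ ∈ Subgroup.centralizer ({u} : Set G) := hle hz
          have h3 : z = (n : G)⁻¹ * ((n : G) * z * (n : G)⁻¹) * (n : G) := by group
          rw [h3]
          exact mul_mem (mul_mem (inv_mem n.2) h2) n.2
        have h1 := (hn' ⟨z, hzC⟩).mpr ((hP'mem _).mpr hz)
        exact (hP'mem _).mp h1
    have hnC := hfixC (n : G) hnN u hu hu1 hun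
    rw [Subgroup.mem_centralizer_iff]
    intro y hy
    have hyP : (y : G) ∈ P := (hP'mem y).mp hy
    apply Subtype.ext
    have h4 := (Subgroup.mem_centralizer_iff.mp hnC) (y : G) hyP
    exact h4
  obtain ⟨Q, K, hKn, hcompl⟩ :=
    Cfsg.Agent.Lib.Helper1.hasNormalPComplement_of_le_centralizer (P.subtype hle) hN
  have hcard : Nat.card K * Nat.card (Q : Subgroup (Subgroup.centralizer ({u} : Set G)))
      = Nat.card (Subgroup.centralizer ({u} : Set G)) := hcompl.card_mul_card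
  obtain ⟨f, hf⟩ : ∃ f : ℕ,
      f = (Nat.card (Subgroup.centralizer ({u} : Set G))).factorization 2 := ⟨_, rfl⟩
  have hQ : Nat.card (Q : Subgroup (Subgroup.centralizer ({u} : Set G))) = 2 ^ f := by
    rw [hf]; exact Q.card_eq_multiplicity
  have hodd : ¬ 2 ∣ Nat.card K := by
    intro h2
    obtain ⟨c, hc⟩ := h2
    have hdvd : 2 ^ (f + 1) ∣ Nat.card (Subgroup.centralizer ({u} : Set G)) := by
      rw [← hcard, hQ, hc, pow_succ]
      exact ⟨c, by ring⟩
    rw [hf] at hdvd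
    exact Nat.pow_succ_factorization_not_dvd Nat.card_pos.ne' Nat.prime_two hdvd
  have hcop : (Nat.card K).Coprime 2 :=
    Nat.Coprime.symm ((Nat.Prime.coprime_iff_not_dvd Nat.prime_two).mpr hodd)
  have hKle : K ≤ Cfsg.pPrimeCore 2 ↥(Subgroup.centralizer ({u} : Set G)) :=
    Cfsg.Agent.Lib.Helper1.le_pPrimeCore 2 hKn hcop
  have h1 : (Cfsg.pPrimeCore 2 ↥(Subgroup.centralizer ({u} : Set G))).index ∣ K.index :=
    Subgroup.index_dvd_of_le hKle
  have h2 : K.index = Nat.card (Q : Subgroup (Subgroup.centralizer ({u} : Set G))) :=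
    hcompl.symm.index_eq_card
  rw [h2, hQ] at h1
  obtain ⟨k, -, hk⟩ := (Nat.dvd_prime_pow Nat.prime_two).mp h1
  exact ⟨k, hk⟩

end sylow

theorem homocyclic_struct [Finite G] (P : Sylow 2 G) (m : ℕ) (hm : 2 ≤ m)
    (e : (P : Subgroup G) ≃* Multiplicative (ZMod (2 ^ m) × ZMod (2 ^ m)))
    (hNC : ¬ Subgroup.normalizer (P : Set G) ≤ Subgroup.centralizer (P : Set G)) :
    ∃ a : G, a ∈ Subgroup.normalizer (P : Set G) ∧
      (∀ u ∈ P, u ≠ 1 → a * u * a⁻¹ ≠ u) ∧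
      (∀ u ∈ P, a ^ 3 * u * (a ^ 3)⁻¹ = u) ∧
      (∀ u ∈ P, ∀ g : G, g * u * g⁻¹ ∈ P →
        g * u * g⁻¹ = u ∨ g * u * g⁻¹ = a * u * a⁻¹ ∨ g * u * g⁻¹ = a ^ 2 * u * (a ^ 2)⁻¹) ∧
      (∀ u ∈ P, u ≠ 1 → ∃ k : ℕ,
        (Cfsg.pPrimeCore 2 ↥(Subgroup.centralizer ({u} : Set G))).index = 2 ^ k) ∧
      (∀ n ∈ Subgroup.normalizer (P : Set G), n ∈ Subgroup.centralizer (P : Set G) ∨
        a⁻¹ * n ∈ Subgroup.centralizer (P : Set G) ∨
        (a ^ 2)⁻¹ * n ∈ Subgroup.centralizer (P : Set G)) := by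
  classical
  have : Fact (Nat.Prime 2) := ⟨Nat.prime_two⟩
  have hab : ∀ x ∈ P, ∀ y ∈ P, x * y = y * x := by
    intro x hx y hy
    have h1 : e (⟨x, hx⟩ * ⟨y, hy⟩) = e (⟨y, hy⟩ * ⟨x, hx⟩) := by
      rw [map_mul e, map_mul e, mul_comm]
    exact congrArg Subtype.val (e.injective h1)
  have hinv := inv_of_equiv (P : Subgroup G) m (by omega) e
  have hfixC : ∀ n ∈ Subgroup.normalizer (P : Set G), ∀ u ∈ P, u ≠ 1 → n * u * n⁻¹ = u →
      n ∈ Subgroup.centralizer (P : Set G) :=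
    fun n hn u hu hu1 h => central_of_fix P hab hinv hn hu hu1 h
  obtain ⟨a, haN, haC⟩ := SetLike.not_le_iff_exists.mp hNC
  have ha2N : a ^ 2 ∈ Subgroup.normalizer (P : Set G) := pow_mem haN 2
  have ha3N : a ^ 3 ∈ Subgroup.normalizer (P : Set G) := pow_mem haN 3
  have ha2C : a ^ 2 ∉ Subgroup.centralizer (P : Set G) := by
    intro h
    apply haC
    apply central_of_sq_central P hab haN
    rwa [← pow_two]
  -- an involution of `P`
  have hex : ∃ t ∈ P, t ≠ 1 ∧ t * t = 1 := by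
    have haC' := haC
    rw [mem_centralizer_iff_conj] at haC'
    push Not at haC'
    obtain ⟨u, hu, hne⟩ := haC'
    have hu1 : u ≠ 1 := by
      rintro rfl; exact hne (by group)
    obtain ⟨j, hj1, hj2⟩ := exists_invol_pow P hu hu1
    exact ⟨u ^ j, pow_mem hu j, hj1, hj2⟩
  obtain ⟨t, ht, ht1, htt⟩ := hex
  obtain ⟨ht₁P, ht₁1, ht₁t₁⟩ := conj_invol P haN ht ht1 htt
  obtain ⟨ht₂P, ht₂1, ht₂t₂⟩ := conj_invol P ha2N ht ht1 htt
  have h10 : a * t * a⁻¹ ≠ t := fun h => haC (hfixC a haN t ht ht1 h)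
  have h20 : a ^ 2 * t * (a ^ 2)⁻¹ ≠ t := fun h => ha2C (hfixC _ ha2N t ht ht1 h)
  have h2eq : a ^ 2 * t * (a ^ 2)⁻¹ = a * (a * t * a⁻¹) * a⁻¹ := by
    rw [pow_two, mul_inv_rev]; simp only [mul_assoc]
  have h21 : a ^ 2 * t * (a ^ 2)⁻¹ ≠ a * t * a⁻¹ := by
    intro h
    rw [h2eq] at h
    exact haC (hfixC a haN _ ht₁P ht₁1 h)
  have hthree : ∀ s ∈ P, s ≠ 1 → s * s = 1 →
      s = t ∨ s = a * t * a⁻¹ ∨ s = a ^ 2 * t * (a ^ 2)⁻¹ := by
    intro s hs hs1 hss
    have h2prod : a ^ 2 * t * (a ^ 2)⁻¹ = t * (a * t * a⁻¹) := by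
      rcases hinv t ht _ ht₁P _ ht₂P htt ht₁t₁ ht₂t₂ ht1 ht₁1 ht₂1 (Ne.symm h10) with h | h | h
      · exact absurd h h20
      · exact absurd h h21
      · exact h
    rcases hinv t ht _ ht₁P s hs htt ht₁t₁ hss ht1 ht₁1 hs1 (Ne.symm h10) with h | h | h
    · left; exact h
    · right; left; exact h
    · right; right; rw [h2prod]; exact h
  have h3t : a ^ 3 * t * (a ^ 3)⁻¹ = t := by
    have h3eq : a ^ 3 * t * (a ^ 3)⁻¹ = a * (a ^ 2 * t * (a ^ 2)⁻¹) * a⁻¹ := by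
      rw [show a ^ 3 = a * a ^ 2 from pow_succ' a 2, mul_inv_rev]; simp only [mul_assoc]
    obtain ⟨h3P, h31, h33⟩ := conj_invol P ha3N ht ht1 htt
    rcases hthree _ h3P h31 h33 with h | h | h
    · exact h
    · exfalso
      rw [h3eq] at h
      exact h20 (mul_left_cancel (mul_right_cancel h))
    · exfalso
      rw [h3eq] at h
      exact haC (hfixC a haN _ ht₂P ht₂1 h)
  have ha3C : a ^ 3 ∈ Subgroup.centralizer (P : Set G) := hfixC _ ha3N t ht ht1 h3t
  have hfive : ∀ n ∈ Subgroup.normalizer (P : Set G), n ∈ Subgroup.centralizer (P : Set G) ∨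
      a⁻¹ * n ∈ Subgroup.centralizer (P : Set G) ∨
      (a ^ 2)⁻¹ * n ∈ Subgroup.centralizer (P : Set G) := by
    intro n hn
    by_cases hnC : n ∈ Subgroup.centralizer (P : Set G)
    · left; exact hnC
    obtain ⟨hsP, hs1, hss⟩ := conj_invol P hn ht ht1 htt
    rcases hthree _ hsP hs1 hss with h | h | h
    · exact absurd (hfixC n hn t ht ht1 h) hnC
    · right; left
      apply hfixC _ (mul_mem (inv_mem haN) hn) t ht ht1
      calc a⁻¹ * n * t * (a⁻¹ * n)⁻¹ = a⁻¹ * (n * t * n⁻¹) * a := by group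
        _ = t := by rw [h]; group
    · right; right
      apply hfixC _ (mul_mem (inv_mem ha2N) hn) t ht ht1
      calc (a ^ 2)⁻¹ * n * t * ((a ^ 2)⁻¹ * n)⁻¹ = (a ^ 2)⁻¹ * (n * t * n⁻¹) * (a ^ 2) := by group
        _ = t := by rw [h]; group
  refine ⟨a, haN, ?_, ?_, ?_, ?_, hfive⟩
  · intro u hu hu1 h
    exact haC (hfixC a haN u hu hu1 h)
  · exact (mem_centralizer_iff_conj P).mp ha3C
  · intro u hu g hg
    have : IsMulCommutative (P : Subgroup G) :=
      ⟨⟨fun x y => Subtype.ext (hab x x.2 y y.2)⟩⟩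
    obtain ⟨n, hnN, hn⟩ := Sylow.conj_eq_normalizer_conj_of_mem P u g⁻¹ hu (by simpa using hg)
    rw [inv_inv] at hn
    have hn'N : n⁻¹ ∈ Subgroup.normalizer (P : Set G) := inv_mem hnN
    rw [hn]
    rcases hfive n⁻¹ hn'N with h | h | h
    · left
      have h1 := (mem_centralizer_iff_conj P).mp h u hu
      rw [inv_inv] at h1
      exact h1
    · right; left
      have h1 := (mem_centralizer_iff_conj P).mp h u hu
      calc n⁻¹ * u * n = a * (a⁻¹ * n⁻¹ * u * (a⁻¹ * n⁻¹)⁻¹) * a⁻¹ := by group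
        _ = a * u * a⁻¹ := by rw [h1]
    · right; right
      have h1 := (mem_centralizer_iff_conj P).mp h u hu
      calc n⁻¹ * u * n = a ^ 2 * ((a ^ 2)⁻¹ * n⁻¹ * u * ((a ^ 2)⁻¹ * n⁻¹)⁻¹) * (a ^ 2)⁻¹ := by
            group
        _ = a ^ 2 * u * (a ^ 2)⁻¹ := by rw [h1]
  · intro u hu hu1
    exact index_core P hab hfixC hu hu1

end main

end Cfsg.Agent.Lib.Helper19.Homocyc
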