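import Mathlib
import Cfsg.Prelude.Def_PLocal
import Cfsg.Prelude.Def_OddOrderLocal

set_option autoImplicit false

universe u

namespace Cfsg.Agent.Lib.Helper19.MC

open Subgroup

theorem conj_zpow' {G : Type*} [Group G] (x y : G) (n : ℤ) :
    (x⁻¹ * y * x) ^ n = x⁻¹ * y ^ n * x := by
  have h := conj_zpow (a := x⁻¹) (b := y) (i := n)
  rw [inv_inv] at h
  exact h

theorem conj_npow' {G : Type*} [Group G] (x y : G) (n : ℕ) :
    (x⁻¹ * y * x) ^ n = x⁻¹ * y ^ n * x := by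
  have h := conj_pow (a := x⁻¹) (b := y) (i := n)
  rw [inv_inv] at h
  exact h

/-- a metacyclic group is generated by `a, b` with `⟨a⟩` normal, in normal form -/
theorem meta_gens {Q : Type*} [Group Q] (h : Cfsg.IsMetacyclic Q) :
    ∃ a b : Q, (Subgroup.zpowers a).Normal ∧ ∀ g : Q, ∃ i j : ℤ, g = b ^ i * a ^ j := by
  obtain ⟨M, hMn, hMc, hQc⟩ := h
  obtain ⟨a', ha'⟩ := IsCyclic.exists_generator (α := ↥M)
  obtain ⟨bq, hbq⟩ := IsCyclic.exists_generator (α := Q ⧸ M)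
  obtain ⟨b, rfl⟩ := QuotientGroup.mk_surjective bq
  have hM : M = Subgroup.zpowers (a' : Q) := by
    ext x; constructor
    · intro hx
      obtain ⟨i, hi⟩ := Subgroup.mem_zpowers_iff.mp (ha' ⟨x, hx⟩)
      refine Subgroup.mem_zpowers_iff.mpr ⟨i, ?_⟩
      have := congrArg Subtype.val hi
      simpa using this
    · intro hx
      obtain ⟨i, rfl⟩ := Subgroup.mem_zpowers_iff.mp hx
      exact M.zpow_mem a'.2 i
  refine ⟨a', b, hM ▸ hMn, fun g => ?_⟩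
  obtain ⟨i, hi⟩ := Subgroup.mem_zpowers_iff.mp (hbq (QuotientGroup.mk g))
  have h1 : (b ^ i)⁻¹ * g ∈ M := by
    apply QuotientGroup.eq.mp
    rw [QuotientGroup.mk_zpow]; exact hi
  rw [hM] at h1
  obtain ⟨j, hj⟩ := Subgroup.mem_zpowers_iff.mp h1
  exact ⟨i, j, by rw [hj]; group⟩

theorem closure_normal_of_conj {G : Type*} [Group G] (s : Set G)
    (h : ∀ x ∈ s, ∀ g : G, g * x * g⁻¹ ∈ s) : (Subgroup.closure s).Normal := by
  constructor
  intro n hn g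
  induction hn using Subgroup.closure_induction with
  | mem x hx => exact Subgroup.subset_closure (h x hx g)
  | one => simp
  | mul a b _ _ ha hb =>
    have e : g * (a * b) * g⁻¹ = (g * a * g⁻¹) * (g * b * g⁻¹) := by group
    rw [e]; exact Subgroup.mul_mem _ ha hb
  | inv a _ ha =>
    have e : g * a⁻¹ * g⁻¹ = (g * a * g⁻¹)⁻¹ := by group
    rw [e]; exact Subgroup.inv_mem _ ha

/-- the subgroup `Φ(G') K₃(G)` (written with generators) -/
def Wsub (p : ℕ) (G : Type*) [Group G] : Subgroup G :=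
  Subgroup.closure ({x | ∃ c ∈ commutator G, ∃ g : G, x = c⁻¹ * g⁻¹ * c * g} ∪
    {x | ∃ c ∈ commutator G, x = c ^ p})

theorem Wsub_normal (p : ℕ) (G : Type*) [Group G] : (Wsub p G).Normal := by
  apply closure_normal_of_conj
  have hn : (commutator G).Normal := inferInstance
  rintro x (⟨c, hc, g, rfl⟩ | ⟨c, hc, rfl⟩) h
  · left
    refine ⟨h * c * h⁻¹, hn.conj_mem c hc h, h * g * h⁻¹, by group⟩
  · right
    refine ⟨h * c * h⁻¹, hn.conj_mem c hc h, ?_⟩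
    rw [conj_pow]

/-- a `p`-element normalizing `⟨a⟩` (a `p`-element) acts trivially modulo `p`-th powers -/
theorem conj_exp_mod {Q : Type*} [Group Q] {p : ℕ} [Fact p.Prime] (hQ : IsPGroup p Q)
    (a b : Q) (r : ℤ) (h : b⁻¹ * a * b = a ^ r) : ∃ t : ℤ, a ^ r = a * (a ^ p) ^ t := by
  have hpp : p.Prime := Fact.out
  by_cases ha : a = 1
  · subst ha; exact ⟨0, by simp⟩
  have hit : ∀ m : ℕ, (b ^ m)⁻¹ * a * b ^ m = a ^ (r ^ m) := by
    intro m
    induction m with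
    | zero => simp
    | succ m ih =>
      have e : (b ^ (m + 1))⁻¹ * a * b ^ (m + 1) = b⁻¹ * ((b ^ m)⁻¹ * a * b ^ m) * b := by
        rw [pow_succ]; group
      rw [e, ih, ← conj_zpow', h, ← zpow_mul, pow_succ, mul_comm]
  obtain ⟨k, hk⟩ := hQ b
  have h1 := hit (p ^ k)
  rw [hk] at h1
  have h2 : a ^ (r ^ (p ^ k) - 1) = 1 := by
    rw [zpow_sub, zpow_one, ← h1]; group
  have h3 : (orderOf a : ℤ) ∣ r ^ (p ^ k) - 1 := orderOf_dvd_iff_zpow_eq_one.mpr h2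
  have h4 : p ∣ orderOf a := by
    obtain ⟨j, hj⟩ := hQ a
    obtain ⟨i, -, hi⟩ := (Nat.dvd_prime_pow hpp).mp (orderOf_dvd_of_pow_eq_one hj)
    rw [hi]
    have hi0 : i ≠ 0 := by
      rintro rfl
      rw [pow_zero, orderOf_eq_one_iff] at hi
      exact ha hi
    exact dvd_pow_self p hi0
  have h5 : (p : ℤ) ∣ r ^ (p ^ k) - 1 := dvd_trans (Int.natCast_dvd_natCast.mpr h4) h3
  have h6 : ((r ^ (p ^ k) - 1 : ℤ) : ZMod p) = 0 :=
    (ZMod.intCast_zmod_eq_zero_iff_dvd _ p).mpr h5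
  have h7 : ((r - 1 : ℤ) : ZMod p) = 0 := by
    push_cast at h6 ⊢
    rw [ZMod.pow_card_pow] at h6
    exact h6
  obtain ⟨t, ht⟩ := (ZMod.intCast_zmod_eq_zero_iff_dvd _ p).mp h7
  refine ⟨t, ?_⟩
  have e : r = 1 + (p : ℤ) * t := by linarith
  rw [e, zpow_add, zpow_one, zpow_mul, zpow_natCast]

/-- Huppert III.11.3, inductive step -/
theorem step_one {G : Type u} [Group G] [Finite G] {p : ℕ} [Fact p.Prime] (hG : IsPGroup p G)
    (N : Subgroup G) [N.Normal] (hN : N ≤ Subgroup.center G) (hNp : ∀ n ∈ N, n ^ p = 1)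
    (hNW : N ≤ Wsub p G) (hm : Cfsg.IsMetacyclic (G ⧸ N)) : Cfsg.IsMetacyclic G := by
  have hpp : p.Prime := Fact.out
  have hQ : IsPGroup p (G ⧸ N) := hG.to_quotient N
  have hcen : ∀ n ∈ N, ∀ g : G, n * g = g * n := fun n hn g =>
    (Subgroup.mem_center_iff.mp (hN hn) g).symm
  obtain ⟨ab, bb, habn, hgen⟩ := meta_gens hm
  obtain ⟨a, rfl⟩ := QuotientGroup.mk_surjective ab
  obtain ⟨b, rfl⟩ := QuotientGroup.mk_surjective bb
  have hconj : ∀ g : G, ∃ s : ℤ, ∃ n ∈ N, g⁻¹ * a * g = a ^ s * n := by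
    intro g
    have h1 := habn.conj_mem (a : G ⧸ N) (Subgroup.mem_zpowers _) ((g : G ⧸ N)⁻¹)
    rw [inv_inv] at h1
    obtain ⟨s, hs⟩ := Subgroup.mem_zpowers_iff.mp h1
    refine ⟨s, (a ^ s)⁻¹ * (g⁻¹ * a * g), ?_, by group⟩
    apply QuotientGroup.eq.mp
    rw [QuotientGroup.mk_zpow, hs]
    simp only [QuotientGroup.mk_mul, QuotientGroup.mk_inv]
  obtain ⟨Pb, hPb⟩ : ∃ Pb : Subgroup (G ⧸ N), Pb = Subgroup.zpowers ((a : G ⧸ N) ^ p) :=
    ⟨_, rfl⟩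
  have hPn : Pb.Normal := by
    constructor
    intro x hx q
    rw [hPb] at hx ⊢
    obtain ⟨i, rfl⟩ := Subgroup.mem_zpowers_iff.mp hx
    have h1 := habn.conj_mem (a : G ⧸ N) (Subgroup.mem_zpowers _) q
    obtain ⟨s, hs⟩ := Subgroup.mem_zpowers_iff.mp h1
    rw [← conj_zpow, ← conj_pow, ← hs]
    have e : ((a : G ⧸ N) ^ s) ^ p = ((a : G ⧸ N) ^ p) ^ s := by
      rw [← zpow_natCast, ← zpow_natCast, ← zpow_mul, ← zpow_mul, mul_comm]
    rw [e]
    exact Subgroup.zpow_mem _ (Subgroup.zpow_mem _ (Subgroup.mem_zpowers _) s) i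
  have hcommQ : ∀ x y : G ⧸ N, x⁻¹ * y⁻¹ * x * y ∈ Pb := by
    have hαβ : Commute (QuotientGroup.mk (a : G ⧸ N) : (G ⧸ N) ⧸ Pb)
        (QuotientGroup.mk (b : G ⧸ N)) := by
      obtain ⟨s, n, hn, hs⟩ := hconj b
      have h1 : ((b : G ⧸ N))⁻¹ * (a : G ⧸ N) * (b : G ⧸ N) = (a : G ⧸ N) ^ s := by
        have h0 := congrArg (QuotientGroup.mk (s := N)) hs
        simp only [QuotientGroup.mk_mul, QuotientGroup.mk_inv, QuotientGroup.mk_zpow] at h0
        rw [h0, (QuotientGroup.eq_one_iff n).mpr hn, mul_one]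
      obtain ⟨t, ht⟩ := conj_exp_mod hQ (a : G ⧸ N) (b : G ⧸ N) s h1
      have h2 : (a : G ⧸ N) * (b : G ⧸ N)
          = (b : G ⧸ N) * ((a : G ⧸ N) * ((a : G ⧸ N) ^ p) ^ t) := by
        rw [← ht, ← h1]; group
      have h3 : (QuotientGroup.mk ((a : G ⧸ N) * (b : G ⧸ N)) : (G ⧸ N) ⧸ Pb)
          = QuotientGroup.mk ((b : G ⧸ N) * (a : G ⧸ N)) := by
        rw [h2]
        apply QuotientGroup.eq.mpr
        have e : ((b : G ⧸ N) * ((a : G ⧸ N) * ((a : G ⧸ N) ^ p) ^ t))⁻¹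
            * ((b : G ⧸ N) * (a : G ⧸ N))
            = (a : G ⧸ N)⁻¹ * (((a : G ⧸ N) ^ p) ^ t)⁻¹ * (a : G ⧸ N)⁻¹⁻¹ := by group
        rw [e]
        exact hPn.conj_mem _
          (Pb.inv_mem (hPb ▸ Subgroup.zpow_mem _ (Subgroup.mem_zpowers _) t)) ((a : G ⧸ N)⁻¹)
      exact h3
    have hcomm2 : ∀ x y : (G ⧸ N) ⧸ Pb, x * y = y * x := by
      intro x y
      obtain ⟨x, rfl⟩ := QuotientGroup.mk_surjective x
      obtain ⟨y, rfl⟩ := QuotientGroup.mk_surjective y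
      obtain ⟨i, j, rfl⟩ := hgen x
      obtain ⟨k, l, rfl⟩ := hgen y
      simp only [QuotientGroup.mk_mul, QuotientGroup.mk_zpow]
      have c1 := (Commute.refl (QuotientGroup.mk (b : G ⧸ N) : (G ⧸ N) ⧸ Pb)).zpow_zpow i k
      have c2 := hαβ.symm.zpow_zpow i l
      have c3 := hαβ.zpow_zpow j k
      have c4 := (Commute.refl (QuotientGroup.mk (a : G ⧸ N) : (G ⧸ N) ⧸ Pb)).zpow_zpow j l
      exact ((c1.mul_right c2).mul_left (c3.mul_right c4)).eq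
    intro x y
    have h1 : (QuotientGroup.mk (x⁻¹ * y⁻¹ * x * y) : (G ⧸ N) ⧸ Pb) = 1 := by
      simp only [QuotientGroup.mk_mul, QuotientGroup.mk_inv]
      rw [mul_assoc, hcomm2 (QuotientGroup.mk x) (QuotientGroup.mk y)]
      group
    exact (QuotientGroup.eq_one_iff _).mp h1
  have hG' : ∀ c ∈ commutator G, ∃ j : ℤ, ∃ n ∈ N, c = (a ^ p) ^ j * n := by
    have hle : commutator G ≤ Pb.comap (QuotientGroup.mk' N) := by
      rw [commutator_eq_closure, Subgroup.closure_le]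
      intro x hx
      obtain ⟨g₁, g₂, h12⟩ := mem_commutatorSet_iff.mp hx
      rw [commutatorElement_def] at h12
      subst h12
      show ((g₁ * g₂ * g₁⁻¹ * g₂⁻¹ : G) : G ⧸ N) ∈ Pb
      have h0 := hcommQ ((g₁ : G ⧸ N)⁻¹) ((g₂ : G ⧸ N)⁻¹)
      simpa only [QuotientGroup.mk_mul, QuotientGroup.mk_inv, inv_inv] using h0
    intro c hc
    have h1 : (c : G ⧸ N) ∈ Pb := hle hc
    rw [hPb] at h1
    obtain ⟨j, hj⟩ := Subgroup.mem_zpowers_iff.mp h1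
    refine ⟨j, ((a ^ p) ^ j)⁻¹ * c, ?_, by group⟩
    apply QuotientGroup.eq.mp
    rw [QuotientGroup.mk_zpow, QuotientGroup.mk_pow]; exact hj
  have hWle : Wsub p G ≤ Subgroup.zpowers a := by
    unfold Wsub
    rw [Subgroup.closure_le]
    rintro x (⟨c, hc, g, rfl⟩ | ⟨c, hc, rfl⟩)
    · obtain ⟨j, n, hn, hcj⟩ := hG' c hc
      obtain ⟨s, n', hn', hs⟩ := hconj g
      have hnc := hcen n hn
      have e1 : c⁻¹ * g⁻¹ * c * g = ((a ^ p) ^ j)⁻¹ * (g⁻¹ * (a ^ p) ^ j * g) := by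
        calc c⁻¹ * g⁻¹ * c * g
            = n⁻¹ * ((a ^ p) ^ j)⁻¹ * g⁻¹ * (a ^ p) ^ j * (n * g) := by rw [hcj]; group
          _ = n⁻¹ * ((a ^ p) ^ j)⁻¹ * g⁻¹ * (a ^ p) ^ j * (g * n) := by rw [hnc g]
          _ = n⁻¹ * ((((a ^ p) ^ j)⁻¹ * (g⁻¹ * (a ^ p) ^ j * g)) * n) := by group
          _ = n⁻¹ * (n * (((a ^ p) ^ j)⁻¹ * (g⁻¹ * (a ^ p) ^ j * g))) := by rw [hnc]
          _ = ((a ^ p) ^ j)⁻¹ * (g⁻¹ * (a ^ p) ^ j * g) := by group
      have e2 : g⁻¹ * (a ^ p) ^ j * g = ((a ^ s) ^ p) ^ j := by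
        rw [← conj_zpow', ← conj_npow', hs]
        have hcm : Commute (a ^ s) n' := (hcen n' hn' (a ^ s)).symm
        rw [hcm.mul_pow, hNp n' hn', mul_one]
      rw [SetLike.mem_coe, e1, e2]
      apply Subgroup.mul_mem
      · exact Subgroup.inv_mem _
          (Subgroup.zpow_mem _ (Subgroup.pow_mem _ (Subgroup.mem_zpowers a) p) j)
      · exact Subgroup.zpow_mem _
          (Subgroup.pow_mem _ (Subgroup.zpow_mem _ (Subgroup.mem_zpowers a) s) p) j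
    · obtain ⟨j, n, hn, hcj⟩ := hG' c hc
      have hcm : Commute ((a ^ p) ^ j) n := (hcen n hn _).symm
      rw [SetLike.mem_coe, hcj, hcm.mul_pow, hNp n hn, mul_one]
      exact Subgroup.pow_mem _
        (Subgroup.zpow_mem _ (Subgroup.pow_mem _ (Subgroup.mem_zpowers a) p) j) p
  have hNa : N ≤ Subgroup.zpowers a := hNW.trans hWle
  have hCn : (Subgroup.zpowers a).Normal := by
    constructor
    intro x hx g
    obtain ⟨i, rfl⟩ := Subgroup.mem_zpowers_iff.mp hx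
    obtain ⟨s, n', hn', hs⟩ := hconj g⁻¹
    rw [inv_inv] at hs
    rw [← conj_zpow, hs]
    exact Subgroup.zpow_mem _
      (Subgroup.mul_mem _ (Subgroup.zpow_mem _ (Subgroup.mem_zpowers a) s) (hNa hn')) i
  refine ⟨Subgroup.zpowers a, hCn, inferInstance, ?_⟩
  rw [isCyclic_iff_exists_zpowers_eq_top]
  refine ⟨QuotientGroup.mk b, ?_⟩
  rw [eq_top_iff]
  intro x _
  obtain ⟨g, rfl⟩ := QuotientGroup.mk_surjective x
  obtain ⟨i, j, hij⟩ := hgen (g : G ⧸ N)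
  have h1 : (b ^ i * a ^ j)⁻¹ * g ∈ N := by
    apply QuotientGroup.eq.mp
    rw [QuotientGroup.mk_mul, QuotientGroup.mk_zpow, QuotientGroup.mk_zpow]; exact hij.symm
  refine Subgroup.mem_zpowers_iff.mpr ⟨i, ?_⟩
  rw [← QuotientGroup.mk_zpow]
  apply QuotientGroup.eq.mpr
  have e : (b ^ i)⁻¹ * g = a ^ j * ((b ^ i * a ^ j)⁻¹ * g) := by group
  rw [e]
  exact Subgroup.mul_mem _ (Subgroup.zpow_mem _ (Subgroup.mem_zpowers a) j) (hNa h1)

end Cfsg.Agent.Lib.Helper19.MC
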