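import Mathlib
import Cfsg.Prelude.Def_PLocal

set_option autoImplicit false

namespace Cfsg.Agent.Lib.Helper19.OQ

open Subgroup

/-- collection formula for `(x a)^n` when `a, [a,x], [a,x,x]` commute and `[a,x,x]` commutes with `x` -/
theorem pow_formula {G : Type*} [Group G] (x a b c : G)
    (h1 : a * x = x * (a * b)) (h2 : b * x = x * (b * c)) (h3 : c * x = x * c)
    (hab : Commute a b) (hac : Commute a c) (hbc : Commute b c) (n : ℕ) :
    (x * a) ^ n = x ^ n * (a ^ n * b ^ (n.choose 2) * c ^ (n.choose 3)) := by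
  induction n with
  | zero => simp
  | succ n ih =>
    have e1 : a ^ n * x = x * (a ^ n * b ^ n) := by
      have hs : SemiconjBy x (a * b) a := h1.symm
      have h := (hs.pow_right n).eq
      rw [← h, hab.mul_pow]
    have e2 : ∀ k : ℕ, b ^ k * x = x * (b ^ k * c ^ k) := by
      intro k
      have hs : SemiconjBy x (b * c) b := h2.symm
      have h := (hs.pow_right k).eq
      rw [← h, hbc.mul_pow]
    have e3 : ∀ k : ℕ, c ^ k * x = x * c ^ k := by
      intro k
      have hc : Commute c x := h3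
      exact (hc.pow_left k).eq
    have hc2 : (n + 1).choose 2 = n + n.choose 2 := by
      rw [Nat.choose_succ_succ' n 1]; simp
    have hc3 : (n + 1).choose 3 = n.choose 2 + n.choose 3 := by
      rw [Nat.choose_succ_succ' n 2]
    have ha1 : Commute (b ^ n * (b ^ n.choose 2 * c ^ n.choose 2) * c ^ n.choose 3) a := by
      apply Commute.mul_left
      · apply Commute.mul_left
        · exact hab.symm.pow_left n
        · exact Commute.mul_left (hab.symm.pow_left _) (hac.symm.pow_left _)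
      · exact hac.symm.pow_left _
    rw [pow_succ, ih, hc2, hc3]
    calc x ^ n * (a ^ n * b ^ n.choose 2 * c ^ n.choose 3) * (x * a)
        = x ^ n * (a ^ n * b ^ n.choose 2 * (c ^ n.choose 3 * x)) * a := by simp only [mul_assoc]
      _ = x ^ n * (a ^ n * (b ^ n.choose 2 * x) * c ^ n.choose 3) * a := by
          rw [e3]; simp only [mul_assoc]
      _ = x ^ n * ((a ^ n * x) * (b ^ n.choose 2 * c ^ n.choose 2) * c ^ n.choose 3) * a := by
          rw [e2]; simp only [mul_assoc]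
      _ = x ^ (n + 1) * (a ^ n * ((b ^ n * (b ^ n.choose 2 * c ^ n.choose 2) * c ^ n.choose 3) * a)) := by
          rw [e1, pow_succ]; simp only [mul_assoc]
      _ = x ^ (n + 1) * (a ^ n * (a * (b ^ n * (b ^ n.choose 2 * c ^ n.choose 2) * c ^ n.choose 3))) := by
          rw [ha1.eq]
      _ = x ^ (n + 1) * (a ^ (n + 1) * b ^ (n + n.choose 2) * c ^ (n.choose 2 + n.choose 3)) := by
          rw [pow_succ a n, pow_add b, pow_add c]; simp only [mul_assoc]

theorem conj_pow' {G : Type*} [Group G] (x y : G) (n : ℕ) :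
    (x⁻¹ * y * x) ^ n = x⁻¹ * y ^ n * x := by
  have h := conj_pow (a := x⁻¹) (b := y) (i := n)
  rw [inv_inv] at h
  exact h

/-- key lemma: a subgroup `H` of order at least `p^4` with `H/N` of exponent `p`, commutators
in `Z = ⟨z⟩N` and `Z` central modulo the central subgroup `N` of order `p` forces more than
`p^2` in `Ω₁`. -/
theorem key {R : Type*} [Group R] [Finite R] {p : ℕ} [Fact p.Prime] (hp : 3 < p)
    (N Z H : Subgroup R) (hN : N ≤ Subgroup.center R) (hNc : Nat.card N = p)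
    (z : R) (hZN : ∀ b ∈ Z, ∀ x : R, b⁻¹ * x⁻¹ * b * x ∈ N) (hzZ : z ∈ Z)
    (hZ : ∀ b ∈ Z, ∃ k : ℤ, ∃ n ∈ N, b = z ^ k * n)
    (hcomm : ∀ x ∈ H, ∀ y ∈ H, y⁻¹ * x⁻¹ * y * x ∈ Z)
    (hpow : ∀ x ∈ H, x ^ p ∈ N)
    (hH : p ^ 4 ≤ Nat.card H) :
    p ^ 2 < Nat.card (Cfsg.omegaOne p (⊤ : Subgroup R)) := by
  have hpp : p.Prime := Fact.out
  have hcen : ∀ n ∈ N, ∀ g : R, n * g = g * n := fun n hn g =>
    (Subgroup.mem_center_iff.mp (hN hn) g).symm
  have hNpow : ∀ n ∈ N, n ^ p = 1 := by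
    intro n hn
    have h := pow_card_eq_one' (G := ↥N) (x := ⟨n, hn⟩)
    rw [hNc] at h
    exact congrArg Subtype.val h
  -- the commutator hom
  obtain ⟨φ, hφ⟩ : ∃ φ : R →* ↥N, ∀ x : R, ((φ x : ↥N) : R) = z⁻¹ * x⁻¹ * z * x := by
    refine ⟨MonoidHom.mk' (fun x => ⟨z⁻¹ * x⁻¹ * z * x, hZN z hzZ x⟩) ?_, fun x => rfl⟩
    intro a b
    apply Subtype.ext
    show z⁻¹ * (a * b)⁻¹ * z * (a * b) = (z⁻¹ * a⁻¹ * z * a) * (z⁻¹ * b⁻¹ * z * b)
    have hn := hcen _ (hZN z hzZ a)
    calc z⁻¹ * (a * b)⁻¹ * z * (a * b) = z⁻¹ * b⁻¹ * z * ((z⁻¹ * a⁻¹ * z * a) * b) := by group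
      _ = z⁻¹ * b⁻¹ * z * (b * (z⁻¹ * a⁻¹ * z * a)) := by rw [hn b]
      _ = (z⁻¹ * b⁻¹ * z * b) * (z⁻¹ * a⁻¹ * z * a) := by simp only [mul_assoc]
      _ = (z⁻¹ * a⁻¹ * z * a) * (z⁻¹ * b⁻¹ * z * b) := (hn _).symm
  have hD : ∀ y ∈ φ.ker, Commute y z := by
    intro y hy
    have h1 : z⁻¹ * y⁻¹ * z * y = 1 := by
      rw [← hφ y, MonoidHom.mem_ker.mp hy]; rfl
    have h2 : z * y = y * z * (z⁻¹ * y⁻¹ * z * y) := by group
    rw [h1, mul_one] at h2
    exact h2.symm
  have hDidx : φ.ker.index ≤ p := by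
    rw [Subgroup.index_ker]
    calc Nat.card φ.range ≤ Nat.card ↥N := Subgroup.card_le_card_group _
      _ = p := hNc
  obtain ⟨C, hCdef⟩ : ∃ C : Subgroup R, C = φ.ker ⊓ H := ⟨_, rfl⟩
  have hCH : C ≤ H := hCdef ▸ inf_le_right
  have hCD : C ≤ φ.ker := hCdef ▸ inf_le_left
  have hCcard : p ^ 3 ≤ Nat.card C := by
    have h1 : Nat.card (C.subgroupOf H) * (C.subgroupOf H).index = Nat.card H :=
      Subgroup.card_mul_index _
    have h2 : Nat.card (C.subgroupOf H) = Nat.card C :=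
      Nat.card_congr (Subgroup.subgroupOfEquivOfLe hCH).toEquiv
    have h3 : (C.subgroupOf H).index ≤ p := by
      show C.relIndex H ≤ p
      rw [hCdef, Subgroup.inf_relIndex_right]
      have hd : φ.ker.relIndex H ∣ φ.ker.index := Subgroup.relIndex_dvd_index_of_normal _ _
      have hpos : 0 < φ.ker.index := Nat.pos_of_ne_zero Subgroup.index_ne_zero_of_finite
      exact le_trans (Nat.le_of_dvd hpos hd) hDidx
    rw [h2] at h1
    have h4 : p ^ 4 ≤ Nat.card C * p := by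
      calc p ^ 4 ≤ Nat.card H := hH
        _ = Nat.card C * (C.subgroupOf H).index := h1.symm
        _ ≤ Nat.card C * p := Nat.mul_le_mul_left _ h3
    have h5 : p ^ 4 = p ^ 3 * p := by ring
    rw [h5] at h4
    exact Nat.le_of_mul_le_mul_right h4 hpp.pos
  have hCZ : ∀ y ∈ C, ∀ b ∈ Z, Commute y b := by
    intro y hy b hb
    obtain ⟨k, n, hn, rfl⟩ := hZ b hb
    have h1 : Commute y (z ^ k) := (hD y (hCD hy)).zpow_right k
    have h2 : Commute y n := (hcen n hn y).symm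
    exact h1.mul_right h2
  -- the power formula
  have F1 : ∀ x ∈ H, ∀ y ∈ C, (x * y) ^ p = x ^ p * y ^ p := by
    intro x hx y hy
    have hyH := hCH hy
    obtain ⟨b, hb⟩ : ∃ b : R, b = y⁻¹ * x⁻¹ * y * x := ⟨_, rfl⟩
    obtain ⟨c, hc⟩ : ∃ c : R, c = b⁻¹ * x⁻¹ * b * x := ⟨_, rfl⟩
    have hbZ : b ∈ Z := hb ▸ hcomm x hx y hyH
    have hcN : c ∈ N := hc ▸ hZN b hbZ x
    have h1 : y * x = x * (y * b) := by rw [hb]; group
    have h2 : b * x = x * (b * c) := by rw [hc]; group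
    have h3 : c * x = x * c := hcen c hcN x
    have hab : Commute y b := hCZ y hy b hbZ
    have hac : Commute y c := (hcen c hcN y).symm
    have hbc : Commute b c := (hcen c hcN b).symm
    have hf := pow_formula x y b c h1 h2 h3 hab hac hbc p
    have hbp : b ^ p = 1 := by
      have e1 : b = y⁻¹ * (x⁻¹ * y * x) := by rw [hb]; group
      have e2 : x⁻¹ * y * x = y * b := by rw [hb]; group
      have hcm : Commute y⁻¹ (x⁻¹ * y * x) := by
        rw [e2]
        exact ((Commute.refl y).mul_right hab).inv_left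
      rw [e1, hcm.mul_pow, conj_pow', inv_pow]
      have h4 := hcen (y ^ p) (hpow y hyH) x
      have h5 : x⁻¹ * y ^ p * x = y ^ p := by
        rw [mul_assoc, h4]; group
      rw [h5]; group
    have hcp : c ^ p = 1 := hNpow c hcN
    have hd2 : p ∣ p.choose 2 := hpp.dvd_choose_self (by norm_num) (by omega)
    have hd3 : p ∣ p.choose 3 := hpp.dvd_choose_self (by norm_num) hp
    obtain ⟨m2, hm2⟩ := hd2
    obtain ⟨m3, hm3⟩ := hd3
    rw [hf, hm2, hm3, pow_mul, pow_mul, hbp, hcp, one_pow, one_pow, mul_one, mul_one]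
  obtain ⟨ψ, hψ⟩ : ∃ ψ : ↥C →* ↥N, ∀ y : ↥C, ((ψ y : ↥N) : R) = (y : R) ^ p := by
    refine ⟨MonoidHom.mk' (fun y => ⟨(y : R) ^ p, hpow y (hCH y.2)⟩) ?_, fun y => rfl⟩
    intro a b
    apply Subtype.ext
    exact F1 a (hCH a.2) b b.2
  have hKle : ψ.ker.map C.subtype ≤ Cfsg.omegaOne p (⊤ : Subgroup R) := by
    rintro _ ⟨y, hy, rfl⟩
    apply Subgroup.subset_closure
    refine ⟨Subgroup.mem_top _, ?_⟩
    have h1 : ((ψ y : ↥N) : R) = 1 := by
      rw [MonoidHom.mem_ker.mp hy]; rfl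
    rw [hψ] at h1
    exact h1
  have hKcard : Nat.card (ψ.ker.map C.subtype) = Nat.card ψ.ker :=
    Subgroup.card_map_of_injective (Subgroup.subtype_injective C)
  by_contra hcon
  push Not at hcon
  have hK2 : Nat.card ψ.ker ≤ p ^ 2 := by
    rw [← hKcard]
    exact le_trans (Subgroup.card_le_of_le hKle) hcon
  have hCeq : Nat.card ψ.ker * Nat.card ψ.range = Nat.card C := by
    rw [← Subgroup.index_ker]
    exact Subgroup.card_mul_index _
  have hrange : Nat.card ψ.range ≤ p := by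
    calc Nat.card ψ.range ≤ Nat.card ↥N := Subgroup.card_le_card_group _
      _ = p := hNc
  have hKpos : 0 < Nat.card ψ.ker := Nat.card_pos
  have hK2' : Nat.card ψ.ker = p ^ 2 := by
    by_contra hne
    have hlt : Nat.card ψ.ker < p ^ 2 := lt_of_le_of_ne hK2 hne
    have : Nat.card C < p ^ 3 := by
      calc Nat.card C = Nat.card ψ.ker * Nat.card ψ.range := hCeq.symm
        _ ≤ Nat.card ψ.ker * p := Nat.mul_le_mul_left _ hrange
        _ < p ^ 2 * p := Nat.mul_lt_mul_of_pos_right hlt hpp.pos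
        _ = p ^ 3 := by ring
    omega
  have hrange' : Nat.card ψ.range = p := by
    by_contra hne
    have hlt : Nat.card ψ.range < p := lt_of_le_of_ne hrange hne
    have : Nat.card C < p ^ 3 := by
      calc Nat.card C = Nat.card ψ.ker * Nat.card ψ.range := hCeq.symm
        _ = p ^ 2 * Nat.card ψ.range := by rw [hK2']
        _ < p ^ 2 * p := Nat.mul_lt_mul_of_pos_left hlt (pow_pos hpp.pos 2)
        _ = p ^ 3 := by ring
    omega
  have hCcard' : Nat.card C = p ^ 3 := by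
    rw [← hCeq, hK2', hrange']; ring
  have hΩ : ψ.ker.map C.subtype = Cfsg.omegaOne p (⊤ : Subgroup R) := by
    apply Subgroup.eq_of_le_of_card_ge hKle
    rw [hKcard, hK2']
    exact hcon
  have hsurj : Function.Surjective ψ := by
    rw [← MonoidHom.range_eq_top]
    apply Subgroup.eq_top_of_card_eq
    rw [hrange', hNc]
  obtain ⟨x, hxH, hxC⟩ : ∃ x ∈ H, x ∉ C := by
    by_contra hno
    push Not at hno
    have hle : H ≤ C := hno
    have h1 := Subgroup.card_le_of_le hle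
    have h2 : p ^ 3 < p ^ 4 := Nat.pow_lt_pow_right hpp.one_lt (by norm_num)
    omega
  obtain ⟨y, hy⟩ := hsurj (⟨x ^ p, hpow x hxH⟩⁻¹)
  have hyp : (y : R) ^ p = (x ^ p)⁻¹ := by
    rw [← hψ, hy]; rfl
  have hxy : (x * (y : R)) ^ p = 1 := by
    rw [F1 x hxH y y.2, hyp, mul_inv_cancel]
  have hmem : x * (y : R) ∈ Cfsg.omegaOne p (⊤ : Subgroup R) :=
    Subgroup.subset_closure ⟨Subgroup.mem_top _, hxy⟩
  rw [← hΩ] at hmem
  obtain ⟨k, _, hk⟩ := hmem
  have hxyC : x * (y : R) ∈ C := by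
    rw [← hk]; exact k.2
  apply hxC
  have := C.mul_mem hxyC (C.inv_mem y.2)
  rwa [mul_inv_cancel_right] at this

end Cfsg.Agent.Lib.Helper19.OQ
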