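import Mathlib
import Cfsg.Agent.Lib.Helper19.QdSylow

set_option autoImplicit false
set_option linter.unusedSimpArgs false

namespace Cfsg.Agent.Lib.Helper19.QdSylow

open Cfsg.Agent.Lib.Helper15 (heis heis_le_qd heis_isPGroup heis_sub_one_cube)
open Cfsg.Agent.Lib.Helper19 (conjAutOfMemNormalizer)

section Norm

variable (p : ℕ)

theorem entry_of_conj {M X Y : Matrix.SpecialLinearGroup (Fin 3) (ZMod p)} (hM : M ∈ Cfsg.qd p)
    (hX : X ∈ heis (ZMod p)) (hY : Y ∈ heis (ZMod p)) (h : M * X = Y * M) :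
    (M : Matrix (Fin 3) (Fin 3) (ZMod p)) 1 0 * (X : Matrix (Fin 3) (Fin 3) (ZMod p)) 0 1 = 0 ∧
    (M : Matrix (Fin 3) (Fin 3) (ZMod p)) 1 0 * (X : Matrix (Fin 3) (Fin 3) (ZMod p)) 0 2 +
      (M : Matrix (Fin 3) (Fin 3) (ZMod p)) 1 1 * (X : Matrix (Fin 3) (Fin 3) (ZMod p)) 1 2 =
      (Y : Matrix (Fin 3) (Fin 3) (ZMod p)) 1 2 := by
  obtain ⟨m0, m1, m2⟩ := (mem_qd_iff p).mp hM
  obtain ⟨x1, x2, x3, x4, x5, x6⟩ := hX
  obtain ⟨y1, y2, y3, y4, y5, y6⟩ := hY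
  have h11 := congrArg (fun N : Matrix.SpecialLinearGroup (Fin 3) (ZMod p) =>
    (N : Matrix (Fin 3) (Fin 3) (ZMod p)) 1 1) h
  have h12 := congrArg (fun N : Matrix.SpecialLinearGroup (Fin 3) (ZMod p) =>
    (N : Matrix (Fin 3) (Fin 3) (ZMod p)) 1 2) h
  simp only [Matrix.SpecialLinearGroup.coe_mul, Matrix.mul_apply, Fin.sum_univ_three,
    x1, x2, x3, x4, x5, x6, y1, y2, y3, y4, y5, y6, m0, m1, m2] at h11 h12
  constructor
  · linear_combination h11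
  · linear_combination h12

theorem conj_mem_heis {M X : Matrix.SpecialLinearGroup (Fin 3) (ZMod p)} (hM : M ∈ Cfsg.qd p)
    (h10 : (M : Matrix (Fin 3) (Fin 3) (ZMod p)) 1 0 = 0) (hX : X ∈ heis (ZMod p)) :
    M * X * M⁻¹ ∈ heis (ZMod p) := by
  obtain ⟨m0, m1, m2⟩ := (mem_qd_iff p).mp hM
  obtain ⟨x1, x2, x3, x4, x5, x6⟩ := hX
  have hdet := M.det_coe
  rw [Matrix.det_fin_three] at hdet
  simp only [h10, m0, m1, m2, mul_zero, zero_mul, sub_zero, add_zero, mul_one] at hdet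
  refine ⟨?_, ?_, ?_, ?_, ?_, ?_⟩ <;>
    simp [Matrix.SpecialLinearGroup.coe_mul, Matrix.SpecialLinearGroup.coe_inv,
      Matrix.adjugate_fin_three, Matrix.mul_apply, Fin.sum_univ_three,
      h10, m0, m1, m2, x1, x2, x3, x4, x5, x6]
  all_goals linear_combination hdet

theorem inv_entry {M : Matrix.SpecialLinearGroup (Fin 3) (ZMod p)} (hM : M ∈ Cfsg.qd p)
    (h10 : (M : Matrix (Fin 3) (Fin 3) (ZMod p)) 1 0 = 0) :
    ((M⁻¹ : Matrix.SpecialLinearGroup (Fin 3) (ZMod p)) : Matrix (Fin 3) (Fin 3) (ZMod p)) 1 0 = 0 := by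
  obtain ⟨m0, m1, m2⟩ := (mem_qd_iff p).mp hM
  simp [Matrix.SpecialLinearGroup.coe_inv, Matrix.adjugate_fin_three, h10, m0, m1, m2]

theorem mem_heisQ_iff {x : ↥(Cfsg.qd p)} :
    x ∈ heisQ p ↔ (x : Matrix.SpecialLinearGroup (Fin 3) (ZMod p)) ∈ heis (ZMod p) :=
  Subgroup.mem_subgroupOf

theorem mem_normalizer_heisQ {M : ↥(Cfsg.qd p)}
    (h10 : ((M : Matrix.SpecialLinearGroup (Fin 3) (ZMod p)) : Matrix (Fin 3) (Fin 3) (ZMod p)) 1 0 = 0) :
    M ∈ Subgroup.normalizer ((heisQ p : Subgroup ↥(Cfsg.qd p)) : Set ↥(Cfsg.qd p)) := by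
  rw [Subgroup.mem_normalizer_iff]
  intro x
  constructor
  · intro hx
    rw [mem_heisQ_iff] at hx ⊢
    exact conj_mem_heis p M.2 h10 hx
  · intro hx
    rw [mem_heisQ_iff] at hx ⊢
    have h1 := conj_mem_heis p (inv_mem M.2) (inv_entry p M.2 h10) hx
    have h2 : (M : Matrix.SpecialLinearGroup (Fin 3) (ZMod p))⁻¹ *
        ((M * x * M⁻¹ : ↥(Cfsg.qd p)) : Matrix.SpecialLinearGroup (Fin 3) (ZMod p)) *
        ((M : Matrix.SpecialLinearGroup (Fin 3) (ZMod p))⁻¹)⁻¹ =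
        (x : Matrix.SpecialLinearGroup (Fin 3) (ZMod p)) := by
      push_cast
      group
    rw [h2] at h1
    exact h1

end Norm

section Norm2

variable (p : ℕ) [Fact p.Prime]

theorem entry_of_mem_normalizer_heisQ {M : ↥(Cfsg.qd p)}
    (hM : M ∈ Subgroup.normalizer ((heisQ p : Subgroup ↥(Cfsg.qd p)) : Set ↥(Cfsg.qd p))) :
    ((M : Matrix.SpecialLinearGroup (Fin 3) (ZMod p)) : Matrix (Fin 3) (Fin 3) (ZMod p)) 1 0 = 0 := by
  have hX : hmS (1 : ZMod p) 0 0 ∈ heis (ZMod p) := hmS_mem 1 0 0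
  have hx : (⟨hmS (1 : ZMod p) 0 0, heis_le_qd p hX⟩ : ↥(Cfsg.qd p)) ∈ heisQ p :=
    (mem_heisQ_iff p).mpr hX
  have h1 := (Subgroup.mem_normalizer_iff.mp hM _).mp hx
  rw [mem_heisQ_iff] at h1
  have h2 : (M : Matrix.SpecialLinearGroup (Fin 3) (ZMod p)) * hmS (1 : ZMod p) 0 0 =
      ((M * (⟨hmS (1 : ZMod p) 0 0, heis_le_qd p hX⟩ : ↥(Cfsg.qd p)) * M⁻¹ : ↥(Cfsg.qd p)) :
        Matrix.SpecialLinearGroup (Fin 3) (ZMod p)) * (M : Matrix.SpecialLinearGroup (Fin 3) (ZMod p)) := by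
    push_cast
    group
  have h3 := (entry_of_conj p M.2 hX h1 h2).1
  simpa [hmS] using h3

theorem normalizer_heisQ_ne_top :
    Subgroup.normalizer ((heisQ p : Subgroup ↥(Cfsg.qd p)) : Set ↥(Cfsg.qd p)) ≠ ⊤ := by
  intro htop
  let w : Matrix.SpecialLinearGroup (Fin 3) (ZMod p) :=
    ⟨!![0, -1, 0; 1, 0, 0; 0, 0, 1], by simp [Matrix.det_fin_three]⟩
  have hw : w ∈ Cfsg.qd p := by
    rw [mem_qd_iff]
    refine ⟨?_, ?_, ?_⟩ <;> simp [w]
  have h1 : (⟨w, hw⟩ : ↥(Cfsg.qd p)) ∈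
      Subgroup.normalizer ((heisQ p : Subgroup ↥(Cfsg.qd p)) : Set ↥(Cfsg.qd p)) := by
    rw [htop]; trivial
  have h2 := entry_of_mem_normalizer_heisQ p h1
  simp [w] at h2

/-- the inverse-transpose automorphism on the copy inside `Qd(p)` -/
noncomputable def tauQ : ↥(heisQ p) ≃* ↥(heisQ p) := (eQ p).trans (tau.trans (eQ p).symm)

theorem e01_tauQ (x : ↥(heisQ p)) : e01 (eQ p (tauQ p x)) = -(e12 (eQ p x)) := by
  show e01 (eQ p ((eQ p).symm (tau (eQ p x)))) = _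
  rw [MulEquiv.apply_symm_apply, e01_tau]

theorem normalizer_char_le (T₀ : Subgroup ↥(heisQ p)) (hT : T₀ ≠ ⊥) (hTc : T₀.Characteristic) :
    Subgroup.normalizer ((T₀.map (heisQ p).subtype : Subgroup ↥(Cfsg.qd p)) : Set ↥(Cfsg.qd p)) ≤
      Subgroup.normalizer ((heisQ p : Subgroup ↥(Cfsg.qd p)) : Set ↥(Cfsg.qd p)) := by
  intro M hM
  apply mem_normalizer_heisQ
  have ent : ∀ x ∈ T₀, ∃ y ∈ T₀,
      ((M : Matrix.SpecialLinearGroup (Fin 3) (ZMod p)) : Matrix (Fin 3) (Fin 3) (ZMod p)) 1 0 *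
        e01 (eQ p x) = 0 ∧
      ((M : Matrix.SpecialLinearGroup (Fin 3) (ZMod p)) : Matrix (Fin 3) (Fin 3) (ZMod p)) 1 0 *
        e02 (eQ p x) +
      ((M : Matrix.SpecialLinearGroup (Fin 3) (ZMod p)) : Matrix (Fin 3) (Fin 3) (ZMod p)) 1 1 *
        e12 (eQ p x) = e12 (eQ p y) := by
    intro x hx
    have h1 : M * (x : ↥(Cfsg.qd p)) * M⁻¹ ∈ T₀.map (heisQ p).subtype :=
      (Subgroup.mem_normalizer_iff.mp hM _).mp (Subgroup.mem_map_of_mem _ hx)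
    obtain ⟨y, hy, hyx⟩ := h1
    refine ⟨y, hy, ?_⟩
    have h2 : (M : Matrix.SpecialLinearGroup (Fin 3) (ZMod p)) *
        ((x : ↥(Cfsg.qd p)) : Matrix.SpecialLinearGroup (Fin 3) (ZMod p)) =
        ((y : ↥(Cfsg.qd p)) : Matrix.SpecialLinearGroup (Fin 3) (ZMod p)) *
        (M : Matrix.SpecialLinearGroup (Fin 3) (ZMod p)) := by
      have h3 : (y : ↥(Cfsg.qd p)) = M * (x : ↥(Cfsg.qd p)) * M⁻¹ := hyx
      rw [h3]
      push_cast
      group
    exact entry_of_conj p M.2 ((mem_heisQ_iff p).mp x.2) ((mem_heisQ_iff p).mp y.2) h2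
  by_cases ha : ∃ x ∈ T₀, e01 (eQ p x) ≠ 0
  · obtain ⟨x, hx, hx0⟩ := ha
    obtain ⟨y, hy, h1, -⟩ := ent x hx
    exact (mul_eq_zero.mp h1).resolve_right hx0
  push Not at ha
  by_cases hb : ∃ x ∈ T₀, e12 (eQ p x) ≠ 0
  · exfalso
    obtain ⟨x, hx, hx0⟩ := hb
    have h1 : tauQ p x ∈ T₀ := by
      have h2 := hTc.fixed (tauQ p)
      rw [← h2] at hx
      exact hx
    have h2 := ha _ h1
    rw [e01_tauQ] at h2
    exact hx0 (neg_eq_zero.mp h2)
  push Not at hb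
  obtain ⟨a, ha1⟩ := (Subgroup.ne_bot_iff_exists_ne_one).mp hT
  have hc : e02 (eQ p a.1) ≠ 0 := by
    intro h0
    apply ha1
    apply Subtype.ext
    apply (eQ p).injective
    rw [eq_hm (eQ p a.1), ha a.1 a.2, hb a.1 a.2, h0, hm_zero]
    simp
  obtain ⟨y, hy, -, h2⟩ := ent a.1 a.2
  rw [hb a.1 a.2, hb y hy, mul_zero, add_zero] at h2
  exact (mul_eq_zero.mp h2).resolve_right hc

end Norm2

section Transport

variable {G : Type*} [Group G]

/-- conjugation isomorphism between a subgroup and its conjugate -/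
noncomputable def conjIso (g : G) (S₀ S : Subgroup G)
    (h : S₀.map (MulAut.conj g).toMonoidHom = S) : ↥S₀ ≃* ↥S :=
  ((MulAut.conj g).subgroupMap S₀).trans (MulEquiv.subgroupCongr h)

theorem conjIso_coe (g : G) (S₀ S : Subgroup G)
    (h : S₀.map (MulAut.conj g).toMonoidHom = S) (x : ↥S₀) :
    ((conjIso g S₀ S h x : ↥S) : G) = g * x * g⁻¹ := rfl

theorem transport (g : G) (S₀ S : Subgroup G) (h : S₀.map (MulAut.conj g).toMonoidHom = S)
    (H0 : ∀ T₀ : Subgroup ↥S₀, T₀ ≠ ⊥ → T₀.Characteristic →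
      Subgroup.normalizer ((T₀.map S₀.subtype : Subgroup G) : Set G) ≤
        Subgroup.normalizer ((S₀ : Subgroup G) : Set G))
    (T : Subgroup ↥S) (hT : T ≠ ⊥) (hTc : T.Characteristic) :
    Subgroup.normalizer ((T.map S.subtype : Subgroup G) : Set G) ≤
      Subgroup.normalizer ((S : Subgroup G) : Set G) := by
  obtain ⟨κ, hκ⟩ : ∃ κ : ↥S₀ ≃* ↥S, κ = conjIso g S₀ S h := ⟨_, rfl⟩
  have hκc : ∀ x : ↥S₀, ((κ x : ↥S) : G) = g * x * g⁻¹ := by
    intro x; rw [hκ]; rfl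
  obtain ⟨T₀, hT₀def⟩ : ∃ T₀ : Subgroup ↥S₀, T₀ = T.comap κ.toMonoidHom := ⟨_, rfl⟩
  have hmem : ∀ x : ↥S₀, x ∈ T₀ ↔ κ x ∈ T := by
    intro x; rw [hT₀def]; rfl
  have hT₀ : T₀ ≠ ⊥ := by
    intro hbot
    apply hT
    have h1 : T = T₀.map κ.toMonoidHom := by
      rw [hT₀def]
      exact (Subgroup.map_comap_eq_self_of_surjective κ.surjective T).symm
    rw [h1, hbot, Subgroup.map_bot]
  have hT₀c : T₀.Characteristic := by
    rw [Subgroup.characteristic_iff_comap_eq]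
    intro φ
    ext x
    have hfix := hTc.fixed (κ.symm.trans (φ.trans κ))
    have h1 : κ x ∈ T.comap (κ.symm.trans (φ.trans κ)).toMonoidHom ↔ κ x ∈ T := by rw [hfix]
    have h2 : κ x ∈ T.comap (κ.symm.trans (φ.trans κ)).toMonoidHom ↔ κ (φ x) ∈ T := by
      show κ (φ (κ.symm (κ x))) ∈ T ↔ _
      rw [MulEquiv.symm_apply_apply]
    show φ x ∈ T₀ ↔ x ∈ T₀
    rw [hmem, hmem, ← h2, h1]
  have hmap : (T₀.map S₀.subtype).map (MulAut.conj g).toMonoidHom = T.map S.subtype := by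
    ext y
    constructor
    · rintro ⟨_, ⟨x, hx, rfl⟩, rfl⟩
      exact ⟨κ x, (hmem x).mp hx, hκc x⟩
    · rintro ⟨z, hz, rfl⟩
      refine ⟨_, ⟨κ.symm z, ?_, rfl⟩, ?_⟩
      · refine (hmem _).mpr ?_
        rw [MulEquiv.apply_symm_apply]; exact hz
      · have h1 := hκc (κ.symm z)
        rw [MulEquiv.apply_symm_apply] at h1
        exact h1.symm
  rw [← hmap, ← Subgroup.map_equiv_normalizer_eq, ← h, ← Subgroup.map_equiv_normalizer_eq]
  exact Subgroup.map_mono (H0 T₀ hT₀ hT₀c)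

theorem normalizer_le_of_characteristic (S : Subgroup G) (T : Subgroup ↥S) (hTc : T.Characteristic) :
    Subgroup.normalizer ((S : Subgroup G) : Set G) ≤
      Subgroup.normalizer ((T.map S.subtype : Subgroup G) : Set G) := by
  apply Cfsg.Agent.Lib.Helper19.le_normalizer_of_conj_mem
  rintro n hn _ ⟨x, hx, rfl⟩
  refine ⟨conjAutOfMemNormalizer hn x, ?_, rfl⟩
  have h1 := hTc.fixed (conjAutOfMemNormalizer hn)
  rw [← h1] at hx
  exact hx

end Transport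

theorem main (p : ℕ) [Fact p.Prime] (S : Sylow p ↥(Cfsg.qd p))
    (T : Subgroup ↥(S : Subgroup ↥(Cfsg.qd p))) (hT : T ≠ ⊥) (hTc : T.Characteristic) :
    Subgroup.normalizer ((T.map (S : Subgroup ↥(Cfsg.qd p)).subtype : Subgroup ↥(Cfsg.qd p)) :
        Set ↥(Cfsg.qd p)) =
      Subgroup.normalizer ((S : Subgroup ↥(Cfsg.qd p)) : Set ↥(Cfsg.qd p)) ∧
    Subgroup.normalizer ((S : Subgroup ↥(Cfsg.qd p)) : Set ↥(Cfsg.qd p)) ≠ ⊤ := by
  obtain ⟨g, hg⟩ := MulAction.exists_smul_eq ↥(Cfsg.qd p) (sylQ p) S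
  have hS : (heisQ p).map (MulAut.conj g).toMonoidHom = (S : Subgroup ↥(Cfsg.qd p)) := by
    rw [← hg, Sylow.coe_subgroup_smul, coe_sylQ]
    rfl
  constructor
  · apply le_antisymm
    · exact transport g (heisQ p) (S : Subgroup ↥(Cfsg.qd p)) hS (normalizer_char_le p) T hT hTc
    · exact normalizer_le_of_characteristic (S : Subgroup ↥(Cfsg.qd p)) T hTc
  · intro htop
    apply normalizer_heisQ_ne_top p
    have h1 := Subgroup.map_equiv_normalizer_eq (heisQ p) (MulAut.conj g)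
    rw [hS, htop] at h1
    have hinj : Function.Injective ((MulAut.conj g).toMonoidHom) := (MulAut.conj g).injective
    rw [← Subgroup.comap_map_eq_self_of_injective hinj
      (Subgroup.normalizer ((heisQ p : Subgroup ↥(Cfsg.qd p)) : Set ↥(Cfsg.qd p)))]
    have h2 : Subgroup.map (MulAut.conj g).toMonoidHom
        (Subgroup.normalizer ((heisQ p : Subgroup ↥(Cfsg.qd p)) : Set ↥(Cfsg.qd p))) = ⊤ := h1
    rw [h2, Subgroup.comap_top]

end Cfsg.Agent.Lib.Helper19.QdSylow
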