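import Mathlib
import Cfsg.Agent.Lib.Helper19.ElemAbFixed

set_option autoImplicit false

namespace Cfsg.Agent.Lib.Helper19.WOrder

open Subgroup

universe u v

section basic

variable {A : Type v} [Group A] {Q : Type u} [Group Q]

/-- Fixed points in `Q` of a subgroup `T` of the acting group. -/
def fxS (φ : A →* MulAut Q) (T : Subgroup A) : Subgroup Q where
  carrier := {x | ∀ t ∈ T, φ t x = x}
  mul_mem' := by
    intro x y hx hy t ht
    rw [map_mul, hx t ht, hy t ht]
  one_mem' := by
    intro t _
    exact map_one _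
  inv_mem' := by
    intro x hx t ht
    rw [map_inv, hx t ht]

theorem mem_fxS {φ : A →* MulAut Q} {T : Subgroup A} {x : Q} :
    x ∈ fxS φ T ↔ ∀ t ∈ T, φ t x = x := Iff.rfl

/-- The stabilizer of a point. -/
def stab (φ : A →* MulAut Q) (x : Q) : Subgroup A where
  carrier := {t | φ t x = x}
  mul_mem' := by
    intro s t hs ht
    change φ (s * t) x = x
    rw [map_mul, MulAut.mul_apply]
    have hs' : φ s x = x := hs
    have ht' : φ t x = x := ht
    rw [ht', hs']
  one_mem' := by
    change φ 1 x = x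
    rw [map_one]; rfl
  inv_mem' := by
    intro s hs
    have hs' : φ s x = x := hs
    change φ s⁻¹ x = x
    rw [map_inv]
    calc (φ s)⁻¹ x = (φ s)⁻¹ (φ s x) := by rw [hs']
      _ = x := MulAut.inv_apply_self _ _ _

theorem mem_stab {φ : A →* MulAut Q} {x : Q} {t : A} : t ∈ stab φ x ↔ φ t x = x := Iff.rfl

theorem mem_fxS_iff_le_stab {φ : A →* MulAut Q} {T : Subgroup A} {x : Q} :
    x ∈ fxS φ T ↔ T ≤ stab φ x := Iff.rfl

theorem mem_fxS_zpowers {φ : A →* MulAut Q} {a : A} {x : Q} :
    x ∈ fxS φ (zpowers a) ↔ φ a x = x := by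
  rw [mem_fxS_iff_le_stab, zpowers_le, mem_stab]

theorem fxS_anti (φ : A →* MulAut Q) {S T : Subgroup A} (h : S ≤ T) : fxS φ T ≤ fxS φ S :=
  fun _ hx t ht => hx t (h ht)

/-- With `A` commutative the fixed points of a subgroup are invariant. -/
theorem fxS_inv (φ : A →* MulAut Q) (hcomm : ∀ a b : A, a * b = b * a) (T : Subgroup A)
    (b : A) (x : Q) (hx : x ∈ fxS φ T) : φ b x ∈ fxS φ T := by
  intro t ht
  have h1 : φ t (φ b x) = (φ (t * b)) x := by rw [map_mul]; rfl
  have h2 : (φ (b * t)) x = φ b (φ t x) := by rw [map_mul]; rfl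
  rw [h1, hcomm t b, h2, hx t ht]

theorem center_inv (φ : A →* MulAut Q) (b : A) (x : Q) (hx : x ∈ center Q) :
    φ b x ∈ center Q := by
  rw [mem_center_iff] at hx ⊢
  intro g
  have e : g = φ b ((φ b)⁻¹ g) := (MulAut.apply_inv_self _ _ _).symm
  rw [e, ← map_mul, ← map_mul, hx]

/-- The restricted action on an invariant subgroup. -/
def resHom (φ : A →* MulAut Q) (N : Subgroup Q) (hN : ∀ a x, x ∈ N → φ a x ∈ N) :
    A →* MulAut N where
  toFun a :=
    { toFun := fun x => ⟨φ a x, hN a x x.2⟩
      invFun := fun x => ⟨φ a⁻¹ x, hN a⁻¹ x x.2⟩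
      left_inv := by
        intro x
        apply Subtype.ext
        change φ a⁻¹ (φ a x) = x
        rw [map_inv]
        exact MulAut.inv_apply_self _ _ _
      right_inv := by
        intro x
        apply Subtype.ext
        change φ a (φ a⁻¹ x) = x
        rw [map_inv]
        exact MulAut.apply_inv_self _ _ _
      map_mul' := by
        intro x y
        apply Subtype.ext
        change φ a (x * y) = φ a x * φ a y
        exact map_mul _ _ _ }
  map_one' := by
    apply MulEquiv.ext
    intro x
    apply Subtype.ext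
    change φ 1 (x : Q) = x
    rw [map_one]; rfl
  map_mul' := by
    intro a b
    apply MulEquiv.ext
    intro x
    apply Subtype.ext
    change φ (a * b) (x : Q) = φ a (φ b x)
    rw [map_mul]; rfl

theorem resHom_apply (φ : A →* MulAut Q) (N : Subgroup Q) (hN : ∀ a x, x ∈ N → φ a x ∈ N)
    (a : A) (x : N) : ((resHom φ N hN a x : N) : Q) = φ a x := rfl

theorem map_eq_of_inv (φ : A →* MulAut Q) (N : Subgroup Q) (hN : ∀ a x, x ∈ N → φ a x ∈ N)
    (a : A) : N.map ((φ a : Q ≃* Q) : Q →* Q) = N := by
  apply le_antisymm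
  · rintro _ ⟨x, hx, rfl⟩
    exact hN a x hx
  · intro x hx
    refine ⟨φ a⁻¹ x, hN a⁻¹ x hx, ?_⟩
    change φ a (φ a⁻¹ x) = x
    rw [map_inv]
    exact MulAut.apply_inv_self _ _ _

/-- The induced action on the quotient by an invariant normal subgroup. -/
def quotHom (φ : A →* MulAut Q) (N : Subgroup Q) [N.Normal] (hN : ∀ a x, x ∈ N → φ a x ∈ N) :
    A →* MulAut (Q ⧸ N) where
  toFun a := QuotientGroup.congr N N (φ a) (map_eq_of_inv φ N hN a)
  map_one' := by
    apply MulEquiv.ext
    intro x
    induction x using QuotientGroup.induction_on with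
    | H x =>
      rw [QuotientGroup.congr_mk, map_one]; rfl
  map_mul' := by
    intro a b
    apply MulEquiv.ext
    intro x
    induction x using QuotientGroup.induction_on with
    | H x =>
      rw [MulAut.mul_apply, QuotientGroup.congr_mk, QuotientGroup.congr_mk,
        QuotientGroup.congr_mk, map_mul]; rfl

theorem quotHom_mk (φ : A →* MulAut Q) (N : Subgroup Q) [N.Normal]
    (hN : ∀ a x, x ∈ N → φ a x ∈ N) (a : A) (x : Q) :
    quotHom φ N hN a (QuotientGroup.mk x) = QuotientGroup.mk (φ a x) :=
  QuotientGroup.congr_mk N N (φ a) (map_eq_of_inv φ N hN a) x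

end basic

section lifting

variable {A : Type v} [Group A] {Q : Type u} [Group Q] [Finite Q]

omit [Finite Q] in
/-- Fixed points of a `p`-group lift through quotients by invariant normal `p'`-subgroups. -/
theorem exists_lift (φ : A →* MulAut Q) (N : Subgroup Q) [N.Normal]
    (hN : ∀ a x, x ∈ N → φ a x ∈ N) {p : ℕ} [Fact p.Prime] (T : Subgroup A)
    (hT : IsPGroup p T) (hNp : ¬ p ∣ Nat.card N) (x : Q)
    (hx : (QuotientGroup.mk x : Q ⧸ N) ∈ fxS (quotHom φ N hN) T) :
    ∃ n ∈ N, x * n ∈ fxS φ T := by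
  have hmem : ∀ t ∈ T, x⁻¹ * φ t x ∈ N := by
    intro t ht
    have h := hx t ht
    rw [quotHom_mk] at h
    exact QuotientGroup.eq.mp h.symm
  have hmem2 : ∀ (t : T) (n : N), x⁻¹ * φ (t : A) (x * n) ∈ N := by
    intro t n
    rw [map_mul, ← mul_assoc]
    exact N.mul_mem (hmem t t.2) (hN t n n.2)
  let act : MulAction T N :=
    { smul := fun t n => ⟨x⁻¹ * φ (t : A) (x * n), hmem2 t n⟩
      one_smul := by
        intro n
        apply Subtype.ext
        change x⁻¹ * φ ((1 : T) : A) (x * n) = n
        rw [OneMemClass.coe_one, map_one]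
        change x⁻¹ * (x * n) = n
        group
      mul_smul := by
        intro s t n
        apply Subtype.ext
        change x⁻¹ * φ ((s * t : T) : A) (x * n) =
          x⁻¹ * φ (s : A) (x * (x⁻¹ * φ (t : A) (x * n)))
        rw [Subgroup.coe_mul, mul_inv_cancel_left]
        have e : φ ((s : A) * (t : A)) (x * n) = φ (s : A) (φ (t : A) (x * n)) := by
          rw [map_mul φ (s : A) (t : A)]; rfl
        rw [e] }
  obtain ⟨n, hn⟩ := hT.nonempty_fixed_point_of_prime_not_dvd_card N hNp
  refine ⟨n, n.2, ?_⟩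
  intro t ht
  have h1 := hn ⟨t, ht⟩
  have h2 : x⁻¹ * φ t (x * n) = n := congrArg Subtype.val h1
  calc φ t (x * n) = x * (x⁻¹ * φ t (x * n)) := by group
    _ = x * n := by rw [h2]

omit [Finite Q] in
theorem card_fxS_eq [Finite Q] (φ : A →* MulAut Q) (N : Subgroup Q) [N.Normal]
    (hN : ∀ a x, x ∈ N → φ a x ∈ N) {p : ℕ} [Fact p.Prime] (T : Subgroup A)
    (hT : IsPGroup p T) (hNp : ¬ p ∣ Nat.card N) :
    Nat.card (fxS φ T) = Nat.card (fxS (resHom φ N hN) T) * Nat.card (fxS (quotHom φ N hN) T) := by
  have hcod : ∀ x : fxS φ T, (QuotientGroup.mk' N) ((fxS φ T).subtype x) ∈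
      fxS (quotHom φ N hN) T := by
    intro x t ht
    change quotHom φ N hN t (QuotientGroup.mk (x : Q)) = QuotientGroup.mk (x : Q)
    rw [quotHom_mk, x.2 t ht]
  obtain ⟨f, hf⟩ : ∃ f : fxS φ T →* fxS (quotHom φ N hN) T,
      f = ((QuotientGroup.mk' N).comp (fxS φ T).subtype).codRestrict _ hcod := ⟨_, rfl⟩
  have hfv : ∀ x : fxS φ T, ((f x : fxS (quotHom φ N hN) T) : Q ⧸ N) =
      QuotientGroup.mk (x : Q) := by
    intro x; rw [hf]; rfl
  have hsurj : Function.Surjective f := by
    rintro ⟨y, hy⟩
    induction y using QuotientGroup.induction_on with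
    | H x =>
      obtain ⟨n, hn, hxn⟩ := exists_lift φ N hN T hT hNp x hy
      refine ⟨⟨x * n, hxn⟩, ?_⟩
      apply Subtype.ext
      rw [hfv]
      change (QuotientGroup.mk (x * n) : Q ⧸ N) = QuotientGroup.mk x
      rw [QuotientGroup.eq]
      have : (x * n)⁻¹ * x = n⁻¹ := by group
      rw [this]
      exact N.inv_mem hn
  have h1 : Nat.card (fxS φ T) = Nat.card (fxS φ T ⧸ f.ker) * Nat.card f.ker :=
    Subgroup.card_eq_card_quotient_mul_card_subgroup f.ker
  have h2 : Nat.card (fxS φ T ⧸ f.ker) = Nat.card (fxS (quotHom φ N hN) T) :=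
    Nat.card_congr (QuotientGroup.quotientKerEquivOfSurjective f hsurj).toEquiv
  have h3 : Nat.card f.ker = Nat.card (fxS φ T ⊓ N : Subgroup Q) := by
    have e : f.ker.map (fxS φ T).subtype = fxS φ T ⊓ N := by
      ext x
      constructor
      · rintro ⟨y, hy, rfl⟩
        refine mem_inf.mpr ⟨y.2, ?_⟩
        have h := congrArg Subtype.val (MonoidHom.mem_ker.mp hy)
        rw [hfv] at h
        exact (QuotientGroup.eq_one_iff _).mp h
      · intro hx
        rw [mem_inf] at hx
        refine ⟨⟨x, hx.1⟩, ?_, rfl⟩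
        change (⟨x, hx.1⟩ : fxS φ T) ∈ f.ker
        rw [MonoidHom.mem_ker]
        apply Subtype.ext
        rw [hfv]
        exact (QuotientGroup.eq_one_iff _).mpr hx.2
    rw [← e, Subgroup.card_map_of_injective (Subgroup.subtype_injective _)]
  have h4 : Nat.card (fxS (resHom φ N hN) T) = Nat.card (fxS φ T ⊓ N : Subgroup Q) := by
    have e : (fxS (resHom φ N hN) T).map N.subtype = fxS φ T ⊓ N := by
      ext x
      constructor
      · rintro ⟨y, hy, rfl⟩
        refine mem_inf.mpr ⟨?_, y.2⟩
        intro t ht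
        exact congrArg Subtype.val (hy t ht)
      · intro hx
        rw [mem_inf] at hx
        refine ⟨⟨x, hx.2⟩, ?_, rfl⟩
        intro t ht
        apply Subtype.ext
        exact hx.1 t ht
    rw [← e, Subgroup.card_map_of_injective (Subgroup.subtype_injective _)]
  rw [h1, h2, h3, h4, mul_comm]

end lifting

section main

variable {A : Type v} [Group A] [Fintype A] [DecidableEq A] {p : ℕ} [hp : Fact p.Prime]

omit [Fintype A] [DecidableEq A] in
theorem card_zpowers_of_ne_one (hexp : ∀ a : A, a ^ p = 1) {a : A} (ha : a ≠ 1) :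
    Nat.card (zpowers a) = p := by
  rw [Nat.card_zpowers]
  exact orderOf_eq_prime (hexp a) ha

omit [DecidableEq A] in
theorem sup_zpowers_eq_top (hexp : ∀ a : A, a ^ p = 1) (hcard : Nat.card A = p ^ 2) {a c : A}
    (ha : a ≠ 1) (hc : c ∉ zpowers a) : zpowers a ⊔ zpowers c = ⊤ := by
  have h1 : Nat.card (zpowers a) = p := card_zpowers_of_ne_one hexp ha
  have hlt : zpowers a < zpowers a ⊔ zpowers c := by
    apply lt_of_le_of_ne le_sup_left
    intro h
    apply hc
    rw [h]
    exact (le_sup_right : zpowers c ≤ _) (mem_zpowers c)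
  have h2 : p < Nat.card (zpowers a ⊔ zpowers c : Subgroup A) := by
    rw [← h1]
    by_contra hcon
    exact hlt.ne (Subgroup.eq_of_le_of_card_ge hlt.le (not_lt.mp hcon))
  have h3 : Nat.card (zpowers a ⊔ zpowers c : Subgroup A) ∣ p ^ 2 :=
    hcard ▸ Subgroup.card_subgroup_dvd_card _
  obtain ⟨k, hk, e⟩ := (Nat.dvd_prime_pow hp.out).mp h3
  have hp1 := hp.out.one_lt
  have hk2 : k = 2 := by
    interval_cases k
    · rw [e, pow_zero] at h2; omega
    · rw [e, pow_one] at h2; omega
    · rfl
  apply Subgroup.eq_top_of_card_eq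
  rw [e, hk2, hcard]

theorem formula_of_trivial (hexp : ∀ a : A, a ^ p = 1) (hcard : Nat.card A = p ^ 2)
    {Q : Type u} [Group Q] [Finite Q] (φ : A →* MulAut Q) {a : A} (ha : a ≠ 1)
    (htriv : fxS φ (zpowers a) = ⊤) :
    Nat.card Q ^ (p - 1) * Nat.card (fxS φ ⊤) ^ (p * (p - 1)) =
      ∏ c ∈ Finset.univ.erase (1 : A), Nat.card (fxS φ (zpowers c)) := by
  classical
  have hg : ∀ c : A, Nat.card (fxS φ (zpowers c)) =
      if c ∈ zpowers a then Nat.card Q else Nat.card (fxS φ ⊤) := by
    intro c
    split_ifs with hc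
    · have : fxS φ (zpowers c) = ⊤ := by
        rw [eq_top_iff, ← htriv]
        exact fxS_anti φ (zpowers_le.mpr hc)
      rw [this, Subgroup.card_top]
    · have : fxS φ (zpowers c) = fxS φ ⊤ := by
        apply le_antisymm
        · intro x hx
          rw [mem_fxS_iff_le_stab] at hx ⊢
          rw [← sup_zpowers_eq_top hexp hcard ha hc]
          refine sup_le ?_ hx
          have : x ∈ fxS φ (zpowers a) := htriv ▸ mem_top x
          exact this
        · exact fxS_anti φ le_top
      rw [this]
  have hprod : (∏ c ∈ Finset.univ.erase (1 : A), Nat.card (fxS φ (zpowers c))) * Nat.card Q =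
      Nat.card Q ^ p * Nat.card (fxS φ ⊤) ^ (p ^ 2 - p) := by
    have h1 := Finset.prod_erase_mul Finset.univ (fun c : A => Nat.card (fxS φ (zpowers c)))
      (Finset.mem_univ (1 : A))
    have hf1 : Nat.card (fxS φ (zpowers (1 : A))) = Nat.card Q := by
      rw [hg]; simp [one_mem]
    rw [hf1] at h1
    rw [h1]
    simp_rw [hg]
    rw [Finset.prod_ite, Finset.prod_const, Finset.prod_const]
    have hc1 : (Finset.univ.filter (fun c : A => c ∈ zpowers a)).card = p := by
      rw [← Fintype.card_subtype, ← Nat.card_eq_fintype_card]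
      exact card_zpowers_of_ne_one hexp ha
    have hc2 : (Finset.univ.filter (fun c : A => ¬ c ∈ zpowers a)).card = p ^ 2 - p := by
      have h := Finset.card_filter_add_card_filter_not (s := (Finset.univ : Finset A))
        (fun c : A => c ∈ zpowers a)
      rw [hc1, Finset.card_univ, ← Nat.card_eq_fintype_card, hcard] at h
      omega
    rw [hc1, hc2]
  have hQpos : 0 < Nat.card Q := Nat.card_pos
  apply Nat.eq_of_mul_eq_mul_right hQpos
  rw [hprod]
  have e1 : p * (p - 1) = p ^ 2 - p := by rw [Nat.mul_sub_one, pow_two]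
  have e2 : Nat.card Q ^ (p - 1) * Nat.card Q = Nat.card Q ^ p := by
    rw [← pow_succ, Nat.sub_add_cancel hp.out.one_le]
  rw [e1, mul_right_comm, e2]

open scoped IsMulCommutative in
/-- Wielandt's order formula for a rank two elementary abelian `p`-group acting on a `q`-group,
`q ≠ p`, in element form. -/
theorem abs_formula (hcomm : ∀ a b : A, a * b = b * a) (hexp : ∀ a : A, a ^ p = 1)
    (hcard : Nat.card A = p ^ 2) {q : ℕ} [hq : Fact q.Prime] (hqp : q ≠ p) :
    ∀ (n : ℕ) (Q : Type u) [Group Q] [Finite Q] (φ : A →* MulAut Q), Nat.card Q ≤ n →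
      IsPGroup q Q →
      Nat.card Q ^ (p - 1) * Nat.card (fxS φ ⊤) ^ (p * (p - 1)) =
        ∏ c ∈ Finset.univ.erase (1 : A), Nat.card (fxS φ (zpowers c)) := by
  intro n
  induction n with
  | zero =>
    intro Q _ _ φ hn
    exact absurd hn (by have := Nat.card_pos (α := Q); omega)
  | succ n ih =>
    intro Q _ _ φ hn hQ
    rcases subsingleton_or_nontrivial Q with hss | hnt
    · simp
    · have hZnt : Nontrivial (center Q) := hQ.center_nontrivial
      have hAp : IsPGroup p A := IsPGroup.of_card hcard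
      obtain ⟨ψ, hψ⟩ : ∃ ψ : A →* MulAut (center Q),
          ψ = resHom φ (center Q) (fun a x hx => center_inv φ a x hx) := ⟨_, rfl⟩
      have hψv : ∀ (a : A) (z : center Q), ((ψ a z : center Q) : Q) = φ a z := by
        intro a z; rw [hψ]; rfl
      have hp1 := hp.out.one_lt
      have hA1 : 1 < Nat.card A := by rw [hcard]; nlinarith
      obtain ⟨u, hu⟩ : ∃ u : A, u ≠ 1 := by
        have : Nontrivial A := (Finite.one_lt_card_iff_nontrivial).mp hA1
        exact exists_ne 1
      obtain ⟨v, hv⟩ : ∃ v : A, v ∉ zpowers u := by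
        by_contra hcon
        push Not at hcon
        have : zpowers u = ⊤ := eq_top_iff.mpr (fun x _ => hcon x)
        have h1 := card_zpowers_of_ne_one hexp hu
        rw [this, Subgroup.card_top, hcard] at h1
        nlinarith
      have key : ∃ a : A, a ≠ 1 ∧ ∃ z : Q, z ∈ center Q ∧ z ≠ 1 ∧ φ a z = z := by
        by_contra hcon
        push Not at hcon
        have hfp : ∀ a : A, a ≠ 1 → ∀ r : center Q, ψ a r = r → r = 1 := by
          intro a ha r hr
          by_contra hr1
          have h := hcon a ha r r.2 (fun h => hr1 (Subtype.ext h))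
          apply h
          rw [← hψv, hr]
        have hall : ∀ r : center Q, r ^ p = 1 := by
          intro r
          refine norm_argument (ψ v) (ψ u) ?_ ?_ ?_ ?_ ?_ r
          · change ψ v * ψ u = ψ u * ψ v
            rw [← map_mul, ← map_mul, hcomm]
          · rw [← map_pow, hexp, map_one]
          · rw [← map_pow, hexp, map_one]
          · intro j r hr
            have e : ψ v * ψ u ^ j = ψ (v * u ^ j) := by rw [map_mul, map_pow]
            rw [e] at hr
            refine hfp _ ?_ r hr
            intro h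
            apply hv
            have : v = (u ^ j)⁻¹ := eq_inv_of_mul_eq_one_left h
            rw [this]
            exact inv_mem (pow_mem (mem_zpowers u) j)
          · exact fun r hr => hfp u hu r hr
        obtain ⟨z, hz⟩ := exists_ne (1 : center Q)
        apply hz
        obtain ⟨k, hk⟩ := (hQ.to_subgroup (center Q)) z
        have hd1 : orderOf z ∣ p := orderOf_dvd_of_pow_eq_one (hall z)
        have hd2 : orderOf z ∣ q ^ k := orderOf_dvd_of_pow_eq_one hk
        have hcop : Nat.Coprime p (q ^ k) :=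
          Nat.Coprime.pow_right k ((Nat.coprime_primes hp.out hq.out).mpr (Ne.symm hqp))
        have : orderOf z = 1 := Nat.eq_one_of_dvd_coprimes hcop hd1 hd2
        exact orderOf_eq_one_iff.mp this
      obtain ⟨a, ha, z, hzZ, hz1, hza⟩ := key
      obtain ⟨N, hNdef⟩ : ∃ N : Subgroup Q, N = fxS φ (zpowers a) ⊓ center Q := ⟨_, rfl⟩
      have hNZ : N ≤ center Q := hNdef ▸ inf_le_right
      have hNnorm : N.Normal := by
        constructor
        intro n hn g
        have h1 : g * n * g⁻¹ = n := by
          have h2 := (mem_center_iff.mp (hNZ hn)) g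
          rw [h2]; group
        rw [h1]; exact hn
      have hNinv : ∀ b x, x ∈ N → φ b x ∈ N := by
        intro b x hx
        rw [hNdef] at hx ⊢
        exact mem_inf.mpr ⟨fxS_inv φ hcomm _ b x (mem_inf.mp hx).1,
          center_inv φ b x (mem_inf.mp hx).2⟩
      have hN1 : N ≠ ⊥ := by
        intro h
        apply hz1
        have : z ∈ N := by rw [hNdef]; exact mem_inf.mpr ⟨mem_fxS_zpowers.mpr hza, hzZ⟩
        rw [h, mem_bot] at this; exact this
      by_cases hNtop : N = ⊤
      · apply formula_of_trivial hexp hcard φ ha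
        rw [eq_top_iff, ← hNtop, hNdef]; exact inf_le_left
      · have hNp : ¬ p ∣ Nat.card N := by
          obtain ⟨k, hk⟩ := (IsPGroup.iff_card).mp (hQ.to_subgroup N)
          rw [hk]
          intro h
          exact hqp ((Nat.prime_dvd_prime_iff_eq hp.out hq.out).mp
            (hp.out.dvd_of_dvd_pow h)).symm
        have hcardQ : Nat.card Q = Nat.card (Q ⧸ N) * Nat.card N :=
          Subgroup.card_eq_card_quotient_mul_card_subgroup N
        have hN1' : 1 < Nat.card N := (Subgroup.one_lt_card_iff_ne_bot N).mpr hN1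
        have hNlt : Nat.card N < Nat.card Q := by
          by_contra hcon
          exact hNtop (Subgroup.eq_top_of_le_card N (not_lt.mp hcon))
        have hQNpos : 0 < Nat.card (Q ⧸ N) := Nat.card_pos
        have hQNlt : Nat.card (Q ⧸ N) < Nat.card Q := by rw [hcardQ]; nlinarith
        have ih1 := ih N (resHom φ N hNinv) (by omega) (hQ.to_subgroup N)
        have ih2 := ih (Q ⧸ N) (quotHom φ N hNinv) (by omega) (hQ.to_quotient N)
        have hL : ∀ T : Subgroup A, Nat.card (fxS φ T) =
            Nat.card (fxS (resHom φ N hNinv) T) * Nat.card (fxS (quotHom φ N hNinv) T) :=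
          fun T => card_fxS_eq φ N hNinv T (hAp.to_subgroup T) hNp
        rw [hL ⊤, hcardQ]
        simp_rw [hL]
        rw [Finset.prod_mul_distrib, ← ih1, ← ih2]
        ring

end main

end Cfsg.Agent.Lib.Helper19.WOrder
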