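import Mathlib
import Cfsg.Agent.Lib.Helper19.WOrderAbs
import Cfsg.Agent.Lib.Helper19.SylowRel
import Cfsg.Agent.Lib.Helper19.CD
import Cfsg.Agent.Lib.Helper24.Coprime
import Cfsg.Agent.Lib.Helper11.BG7d
import Cfsg.Agent.Lib.Helper21.ProdCard

set_option autoImplicit false

namespace Cfsg.Agent.Lib.Helper19.WOrder

open Subgroup

variable {H : Type*} [Group H] [Finite H] {p : ℕ} [hp : Fact p.Prime]

/-- Wielandt's order formula for a rank two elementary abelian `p`-subgroup normalizing a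
`q`-subgroup, `q ≠ p`. -/
theorem amb_formula_q (A P : Subgroup H) [Fintype A] [DecidableEq A]
    (hcomm : ∀ a ∈ A, ∀ b ∈ A, a * b = b * a) (hexp : ∀ a ∈ A, a ^ p = 1)
    (hcard : Nat.card A = p ^ 2) {q : ℕ} [Fact q.Prime] (hqp : q ≠ p) (hP : IsPGroup q P)
    (hAP : A ≤ normalizer (P : Set H)) :
    Nat.card P ^ (p - 1) * Nat.card ↥(P ⊓ centralizer (A : Set H)) ^ (p * (p - 1)) =
      ∏ c ∈ Finset.univ.erase (1 : A), Nat.card ↥(P ⊓ centralizer ({(c : H)} : Set H)) := by
  let _ := Cfsg.Agent.Lib.Helper24.conjNormalizerAction P A hAP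
  obtain ⟨φ, hφdef⟩ : ∃ φ : A →* MulAut P, φ = MulDistribMulAction.toMulAut A P := ⟨_, rfl⟩
  have hφ : ∀ (c : A) (r : P), ((φ c) r : H) = c * r * (c : H)⁻¹ := by
    intro c r; rw [hφdef]; rfl
  have hmain := abs_formula (A := A) (p := p) (fun a b => Subtype.ext (hcomm a a.2 b b.2))
    (fun a => Subtype.ext (hexp a a.2)) hcard hqp (Nat.card P) P φ le_rfl hP
  have hfix1 : ∀ c : A, Nat.card (fxS φ (zpowers c)) =
      Nat.card ↥(P ⊓ centralizer ({(c : H)} : Set H)) := by
    intro c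
    have e : (fxS φ (zpowers c)).map P.subtype = P ⊓ centralizer ({(c : H)} : Set H) := by
      ext x
      constructor
      · rintro ⟨y, hy, rfl⟩
        refine mem_inf.mpr ⟨y.2, ?_⟩
        rw [mem_centralizer_iff]
        intro g hg
        rw [Set.mem_singleton_iff] at hg
        subst hg
        have h1 := congrArg Subtype.val (mem_fxS_zpowers.mp hy)
        rw [hφ] at h1
        change (c : H) * (y : H) = (y : H) * c
        calc (c : H) * y = (c * y * (c : H)⁻¹) * c := by group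
          _ = y * c := by rw [h1]
      · intro hx
        rw [mem_inf] at hx
        refine ⟨⟨x, hx.1⟩, ?_, rfl⟩
        change (⟨x, hx.1⟩ : P) ∈ fxS φ (zpowers c)
        rw [mem_fxS_zpowers]
        apply Subtype.ext
        rw [hφ]
        have h1 := (mem_centralizer_iff.mp hx.2) c (Set.mem_singleton _)
        change (c : H) * x * (c : H)⁻¹ = x
        rw [h1]; group
    rw [← e, Subgroup.card_map_of_injective (Subgroup.subtype_injective _)]
  have hfix2 : Nat.card (fxS φ ⊤) = Nat.card ↥(P ⊓ centralizer (A : Set H)) := by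
    have e : (fxS φ ⊤).map P.subtype = P ⊓ centralizer (A : Set H) := by
      ext x
      constructor
      · rintro ⟨y, hy, rfl⟩
        refine mem_inf.mpr ⟨y.2, ?_⟩
        rw [mem_centralizer_iff]
        intro g hg
        have h1 := congrArg Subtype.val (hy ⟨g, hg⟩ (mem_top _))
        rw [hφ] at h1
        change g * (y : H) = (y : H) * g
        calc g * (y : H) = (g * y * g⁻¹) * g := by group
          _ = y * g := by rw [h1]
      · intro hx
        rw [mem_inf] at hx
        refine ⟨⟨x, hx.1⟩, ?_, rfl⟩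
        intro t _
        apply Subtype.ext
        rw [hφ]
        have h1 := (mem_centralizer_iff.mp hx.2) t t.2
        change (t : H) * x * (t : H)⁻¹ = x
        rw [h1]; group
    rw [← e, Subgroup.card_map_of_injective (Subgroup.subtype_injective _)]
  rw [hfix2] at hmain
  simp_rw [hfix1] at hmain
  exact hmain

omit [Finite H] in
/-- The order of a relative Sylow subgroup. -/
theorem card_of_relSylow {q : ℕ} [Fact q.Prime] {R C : Subgroup H} (hRC : R ≤ C)
    (hR : IsPGroup q R) (hidx : ¬ q ∣ R.relIndex C) [Finite R] :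
    Nat.card R = q ^ (Nat.card C).factorization q := by
  obtain ⟨k, hk⟩ := (IsPGroup.iff_card).mp hR
  have h1 := card_mul_relIndex_of_le hRC
  have hq := (Fact.out : q.Prime)
  have hne : R.relIndex C ≠ 0 := by
    intro h; rw [h] at hidx; exact hidx (dvd_zero q)
  rw [← h1, hk, Nat.factorization_mul (pow_ne_zero k hq.ne_zero) hne, Finsupp.add_apply,
    hq.factorization_pow, Finsupp.single_eq_same, Nat.factorization_eq_zero_of_not_dvd hidx,
    add_zero]

/-- For an `A`-invariant Sylow `q`-subgroup `P` of the `p'`-group `K` and a subset `T` of the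
abelian `p`-group `A`, `C_P(T)` is a Sylow `q`-subgroup of `C_K(T)`. -/
theorem card_inf_centralizer_of_sylow (A K P : Subgroup H)
    (hcomm : ∀ a ∈ A, ∀ b ∈ A, a * b = b * a) (hAp : IsPGroup p A)
    (hK : ¬ p ∣ Nat.card K) (hAK : A ≤ normalizer (K : Set H)) {q : ℕ} [Fact q.Prime]
    (hPK : P ≤ K) (hP : IsPGroup q P) (hidx : ¬ q ∣ P.relIndex K)
    (hAP : A ≤ normalizer (P : Set H)) (T : Set H) (hT : T ⊆ A) :
    Nat.card ↥(P ⊓ centralizer T) = q ^ (Nat.card ↥(K ⊓ centralizer T)).factorization q := by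
  have hq := (Fact.out : q.Prime)
  obtain ⟨C, hCdef⟩ : ∃ C : Subgroup H, C = K ⊓ centralizer T := ⟨_, rfl⟩
  rw [← hCdef]
  have hCK : C ≤ K := hCdef ▸ inf_le_left
  have hCT : C ≤ centralizer T := hCdef ▸ inf_le_right
  have hAcT : A ≤ centralizer T := by
    intro a ha
    rw [mem_centralizer_iff]
    intro t ht
    exact hcomm t (hT ht) a ha
  have hAC : A ≤ normalizer (C : Set H) := by
    rw [hCdef]
    exact Cfsg.Agent.Lib.Helper21.le_normalizer_inf_of_le hAK (hAcT.trans le_normalizer)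
  have hCp : ¬ p ∣ Nat.card C := fun h => hK (h.trans (Subgroup.card_dvd_of_le hCK))
  obtain ⟨R, hRC, hRq, hRidx, hAR⟩ :=
    Cfsg.Agent.Lib.Helper24.exists_invariant_sylow p q C A hAp hAC hCp
  obtain ⟨P', hRP', hP'K, hP'q, hP'idx, hAP'⟩ :=
    Cfsg.Agent.Lib.Helper24.exists_invariant_sylow_ge p q K A R hAp hAK hK (hRC.trans hCK) hRq hAR
  obtain ⟨k, hk, hkP⟩ := exists_conj_le_of_not_dvd_relIndex hPK hP hidx hP'K hP'q
  have hcardP : Nat.card P' = Nat.card P := by
    rw [card_of_relSylow hP'K hP'q hP'idx, card_of_relSylow hPK hP hidx]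
  have h2 : P'.map (MulAut.conj k).toMonoidHom = P := by
    have h1 : P'.map (MulAut.conj k).toMonoidHom ≤ P := by
      rintro _ ⟨a, ha, rfl⟩
      exact hkP a ha
    apply Subgroup.eq_of_le_of_card_ge h1
    rw [Subgroup.card_map_of_injective (MulAut.conj k).injective, hcardP]
  have e : P' = P.map (MulAut.conj k⁻¹).toMonoidHom := by
    ext x
    rw [Cfsg.Agent.Lib.Helper11.mem_map_conj, inv_inv]
    constructor
    · intro hx; exact hkP x hx
    · intro hx
      rw [← h2] at hx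
      obtain ⟨y, hy, hyx⟩ := hx
      have h3 : k * y * k⁻¹ = k * x * k⁻¹ := hyx
      have h4 : y = x := by
        have := congrArg (fun z => k⁻¹ * z * k) h3
        simpa [mul_assoc] using this
      exact h4 ▸ hy
  obtain ⟨j, hj⟩ := (IsPGroup.iff_card).mp hAp
  have hcop : (Nat.card A).Coprime (Nat.card K) := by
    rw [hj]
    exact Nat.Coprime.pow_left j ((Nat.Prime.coprime_iff_not_dvd hp.out).mpr hK)
  have hAnil : Group.IsNilpotent A := hAp.isNilpotent
  have hAsolv : Group.IsSolvable A := inferInstance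
  obtain ⟨c, hc, hcP⟩ := Cfsg.Agent.Lib.Helper11.glauberman_trans A K hAK hcop (Or.inl hAsolv)
    P P' hAP hAP' k⁻¹ (K.inv_mem hk) e
  have hcA : c ∈ centralizer (A : Set H) := (mem_inf.mp hc).2
  have hle : R.map (MulAut.conj c⁻¹).toMonoidHom ≤ P ⊓ centralizer T := by
    rintro _ ⟨r, hr, rfl⟩
    have hrP' : r ∈ P' := hRP' hr
    rw [hcP] at hrP'
    obtain ⟨x, hx, hxr⟩ := hrP'
    have hxr' : c * x * c⁻¹ = r := hxr
    refine mem_inf.mpr ⟨?_, ?_⟩
    · change c⁻¹ * r * c⁻¹⁻¹ ∈ P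
      rw [← hxr']
      have : c⁻¹ * (c * x * c⁻¹) * c⁻¹⁻¹ = x := by group
      rw [this]; exact hx
    · rw [mem_centralizer_iff]
      intro t ht
      have h1 : Commute t r := (mem_centralizer_iff.mp (hCT (hRC hr))) t ht
      have h3 : Commute t c := (mem_centralizer_iff.mp hcA) t (hT ht)
      exact ((h3.inv_right.mul_right h1).mul_right h3.inv_right.inv_right).eq
  have hR1 : Nat.card R = q ^ (Nat.card C).factorization q := card_of_relSylow hRC hRq hRidx
  have h1 : Nat.card R ≤ Nat.card ↥(P ⊓ centralizer T) := by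
    have e1 : Nat.card ↥(R.map (MulAut.conj c⁻¹).toMonoidHom) = Nat.card R :=
      Subgroup.card_map_of_injective (MulAut.conj c⁻¹).injective
    rw [← e1]
    exact Subgroup.card_le_of_le hle
  have h4 : Nat.card ↥(P ⊓ centralizer T) ∣ q ^ (Nat.card C).factorization q := by
    obtain ⟨i, hi⟩ := (IsPGroup.iff_card).mp
      (hP.to_le inf_le_left : IsPGroup q ↥(P ⊓ centralizer T))
    have hdvd : Nat.card ↥(P ⊓ centralizer T) ∣ Nat.card C :=
      Subgroup.card_dvd_of_le (hCdef ▸ inf_le_inf_right _ hPK)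
    rw [hi] at hdvd ⊢
    exact pow_dvd_pow q ((hq.pow_dvd_iff_le_factorization Nat.card_pos.ne').mp hdvd)
  exact le_antisymm (Nat.le_of_dvd (pow_pos hq.pos _) h4) (hR1 ▸ h1)

/-- Wielandt's order formula (element form) for a rank two elementary abelian `p`-subgroup `A`
normalizing a `p'`-subgroup `K`:
`|K|^(p-1) |C_K(A)|^(p(p-1)) = ∏_{1 ≠ c ∈ A} |C_K(c)|`. -/
theorem amb_formula (A K : Subgroup H) [Fintype A] [DecidableEq A]
    (hcomm : ∀ a ∈ A, ∀ b ∈ A, a * b = b * a) (hexp : ∀ a ∈ A, a ^ p = 1)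
    (hcard : Nat.card A = p ^ 2) (hK : ¬ p ∣ Nat.card K) (hAK : A ≤ normalizer (K : Set H)) :
    Nat.card K ^ (p - 1) * Nat.card ↥(K ⊓ centralizer (A : Set H)) ^ (p * (p - 1)) =
      ∏ c ∈ Finset.univ.erase (1 : A), Nat.card ↥(K ⊓ centralizer ({(c : H)} : Set H)) := by
  have hAp : IsPGroup p A := IsPGroup.of_card hcard
  have hpos : ∀ S : Subgroup H, Nat.card S ≠ 0 := fun S => Nat.card_pos.ne'
  have hL0 : Nat.card K ^ (p - 1) * Nat.card ↥(K ⊓ centralizer (A : Set H)) ^ (p * (p - 1)) ≠ 0 :=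
    mul_ne_zero (pow_ne_zero _ (hpos _)) (pow_ne_zero _ (hpos _))
  have hR0 : ∏ c ∈ Finset.univ.erase (1 : A),
      Nat.card ↥(K ⊓ centralizer ({(c : H)} : Set H)) ≠ 0 :=
    Finset.prod_ne_zero_iff.mpr (fun c _ => hpos _)
  apply Nat.eq_of_factorization_eq hL0 hR0
  intro q
  by_cases hq : q.Prime
  swap
  · rw [Nat.factorization_eq_zero_of_not_prime _ hq, Nat.factorization_eq_zero_of_not_prime _ hq]
  have : Fact q.Prime := ⟨hq⟩
  rw [Nat.factorization_mul (pow_ne_zero _ (hpos _)) (pow_ne_zero _ (hpos _)),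
    Nat.factorization_pow, Nat.factorization_pow,
    Nat.factorization_prod_apply (fun c _ => hpos _)]
  simp only [Finsupp.add_apply, Finsupp.smul_apply, smul_eq_mul]
  by_cases hqp : q = p
  · subst hqp
    have hz : ∀ S : Subgroup H, S ≤ K → (Nat.card S).factorization q = 0 := fun S hS =>
      Nat.factorization_eq_zero_of_not_dvd (fun h => hK (h.trans (Subgroup.card_dvd_of_le hS)))
    rw [hz K le_rfl, hz _ inf_le_left, Finset.sum_eq_zero (fun c _ => hz _ inf_le_left)]
    simp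
  · obtain ⟨P, hPK, hPq, hPidx, hAP⟩ :=
      Cfsg.Agent.Lib.Helper24.exists_invariant_sylow p q K A hAp hAK hK
    have hS : ∀ T : Set H, T ⊆ A → Nat.card ↥(P ⊓ centralizer T) =
        q ^ (Nat.card ↥(K ⊓ centralizer T)).factorization q :=
      fun T hT => card_inf_centralizer_of_sylow A K P hcomm hAp hK hAK hPK hPq hPidx hAP T hT
    have hf := amb_formula_q A P hcomm hexp hcard hqp hPq hAP
    rw [card_of_relSylow hPK hPq hPidx, hS (A : Set H) subset_rfl] at hf
    have hS1 : ∀ c : A, Nat.card ↥(P ⊓ centralizer ({(c : H)} : Set H)) =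
        q ^ (Nat.card ↥(K ⊓ centralizer ({(c : H)} : Set H))).factorization q :=
      fun c => hS {(c : H)} (Set.singleton_subset_iff.mpr c.2)
    simp_rw [hS1] at hf
    rw [← pow_mul, ← pow_mul, ← pow_add, Finset.prod_pow_eq_pow_sum] at hf
    have h5 := Nat.pow_right_injective hq.two_le hf
    rw [← h5]; ring

omit [Finite H] in
/-- If every element of `A ⊔ B` is a product, then `|A| |B| = |A ⊔ B| |A ⊓ B|`. -/
theorem card_mul_of_forall_mul (A B : Subgroup H)
    (h : ∀ x ∈ A ⊔ B, ∃ a ∈ A, ∃ b ∈ B, x = a * b) :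
    Nat.card A * Nat.card B = Nat.card ↥(A ⊔ B) * Nat.card ↥(A ⊓ B) := by
  have h1 := card_mul_relIndex_of_le (inf_le_left : A ⊓ B ≤ A)
  rw [Subgroup.inf_relIndex_left] at h1
  have h2 := card_mul_relIndex_of_le (le_sup_right : B ≤ A ⊔ B)
  have hsurj : Function.Surjective
      (Subgroup.quotientSubgroupOfEmbeddingOfLE B (le_sup_left : A ≤ A ⊔ B)) := by
    intro y
    induction y using QuotientGroup.induction_on with
    | H x =>
      obtain ⟨a, ha, b, hb, hx⟩ := h x x.2
      refine ⟨QuotientGroup.mk ⟨a, ha⟩, ?_⟩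
      rw [Subgroup.quotientSubgroupOfEmbeddingOfLE_apply_mk, QuotientGroup.eq,
        Subgroup.mem_subgroupOf]
      have : ((((inclusion (le_sup_left : A ≤ A ⊔ B)) ⟨a, ha⟩)⁻¹ * x : ↥(A ⊔ B)) : H) = b := by
        change a⁻¹ * (x : H) = b
        rw [hx]; group
      rw [this]; exact hb
  have h3 : B.relIndex A = B.relIndex (A ⊔ B) :=
    Nat.card_congr (Equiv.ofBijective _
      ⟨(Subgroup.quotientSubgroupOfEmbeddingOfLE B le_sup_left).injective, hsurj⟩)
  calc Nat.card A * Nat.card B = Nat.card ↥(A ⊓ B) * B.relIndex A * Nat.card B := by rw [h1]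
    _ = Nat.card ↥(A ⊓ B) * B.relIndex (A ⊔ B) * Nat.card B := by rw [h3]
    _ = Nat.card ↥(A ⊔ B) * Nat.card ↥(A ⊓ B) := by rw [← h2]; ring

end Cfsg.Agent.Lib.Helper19.WOrder
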